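import Cfsg.Agent.Lead.AS3
import Cfsg.Agent.S1035
import Cfsg.Agent.S1059
import Cfsg.Agent.S1062

/-! Alternating sections of the groups `G₂`, `F₄`, `³D₄`, `²F₄`. -/

set_option autoImplicit false
set_option linter.unusedSectionVars false

namespace Lead.AS
open Subgroup H24 Cfsg.Lie

theorem sub1 {q : ℕ} (hq : 0 < q) (n : ℕ) : q ^ n - 1 = (q - 1) * ∑ i ∈ Finset.range n, q ^ i := by
  obtain ⟨k, rfl⟩ : ∃ k, q = k + 1 := ⟨q - 1, by omega⟩
  rw [← geom_sum_mul_add k n, Nat.add_sub_cancel, Nat.add_sub_cancel, mul_comm]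

theorem fermat {s p : ℕ} [hs : Fact s.Prime] [hp : Fact p.Prime] (h : p ≠ s) (a : ℕ) :
    (((p ^ a) ^ (s - 1) : ℕ) : ZMod s) = 1 := by
  rw [Nat.cast_pow, ZMod.pow_card_sub_one_eq_one]
  rw [Ne, ZMod.natCast_eq_zero_iff]
  exact fun H => h ((Nat.prime_dvd_prime_iff_eq hs.out hp.out).1 (hs.out.dvd_of_dvd_pow H)).symm

theorem five_pow (a : ℕ) : ((5 ^ a : ℕ) : ZMod 8) = 1 ∨ ((5 ^ a : ℕ) : ZMod 8) = 5 := by
  induction a with
  | zero => exact Or.inl rfl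
  | succ a ih => rw [pow_succ, Nat.cast_mul]; rcases ih with h | h <;> rw [h] <;> decide

theorem Sec.unmap {A G G' : Type*} [Group A] [Group G] [Group G'] {M : Subgroup G} {i : G →* G'}
    (hi : Function.Injective i) (h : Sec A (M.map i)) : Sec A M :=
  h.right (M.equivMapOfInjective i hi).symm.toMonoidHom (M.equivMapOfInjective i hi).symm.injective

theorem ndvd {s b : ℕ} (h : (b : ZMod s) ≠ 0) : ¬ s ∣ b := fun H => h ((ZMod.natCast_eq_zero_iff _ _).2 H)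

section
variable (F : Type*) [Field F] [Fintype F]

theorem idxG2 {q : ℕ} (hq : Fintype.card F = q) : (tabG2_chk.st F).H.relIndex (tabG2_chk.st F).Gr =
    q ^ 6 * (q + 1) ^ 2 * (q ^ 4 + q ^ 2 + 1) := by
  have h1 : 1 < q := hq ▸ Fintype.one_lt_card
  refine relIndex_eq (a := (q - 1) ^ 2) ?_ ?_ (pow_ne_zero _ (by omega))
  · rw [inf_eq_left.2 (St0.H_le_Gr _), ← tabG2_chk.diagonalSubgroup_eq]
    exact (one_mul _).symm.trans (Cfsg.Agent.S1035.result hq (chevG2, 1) (by simp))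
  · rw [← tabG2_chk.group_eq, Cfsg.Agent.S1059.result hq, sub1 (by omega) 2, sub1 (by omega) 6]
    simp only [Finset.sum_range_succ, Finset.sum_range_zero]; ring

theorem idxF4 {q : ℕ} (hq : Fintype.card F = q) : (tabF4_chk.st F).H.relIndex (tabF4_chk.st F).Gr =
    q ^ 24 * (∑ i ∈ Finset.range 2, q ^ i) * (∑ i ∈ Finset.range 6, q ^ i) * (∑ i ∈ Finset.range 8, q ^ i) *
      ∑ i ∈ Finset.range 12, q ^ i := by
  have h1 : 1 < q := hq ▸ Fintype.one_lt_card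
  refine relIndex_eq (a := (q - 1) ^ 4) ?_ ?_ (pow_ne_zero _ (by omega))
  · rw [inf_eq_left.2 (St0.H_le_Gr _), ← tabF4_chk.diagonalSubgroup_eq]
    exact (one_mul _).symm.trans (Cfsg.Agent.S1035.result hq (chevF4, 1) (by simp))
  · rw [← tabF4_chk.group_eq, Cfsg.Agent.S1062.result hq, sub1 (by omega) 2, sub1 (by omega) 6, sub1 (by omega) 8,
      sub1 (by omega) 12]
    ring

theorem powG2 : ∀ n ∈ (tabG2_chk.st F).N ⊓ (tabG2_chk.st F).Gr, n ^ 6 ∈ (tabG2_chk.st F).H := fun n hn => by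
  obtain ⟨w, hw, h⟩ := (tabG2_chk.st F).exists_rep hn.1
  exact St.mem_H_of_rep_one _ (pow_mem hn.1 _) (expG2 w hw ▸ rep_pow h 6)

theorem G2_7 (h : (Fintype.card F : ZMod 5) = 1) : ¬ Sec (alternatingGroup (Fin 7)) (chevG2.group F) := by
  rw [tabG2_chk.group_eq]
  refine not_A7_5 ((dec_Gr _).ctl1 (St.r3_of_adj _ (tabG2_chk.adj F)) (powG2 F)) (ndvd ?_)
  rw [← relIndex, idxG2 F rfl]
  push_cast; rw [h]; decide

theorem G2_8 [CharP F 5] : ¬ Sec (alternatingGroup (Fin 8)) (chevG2.group F) := by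
  haveI : Fact (Nat.Prime 5) := ⟨by norm_num⟩
  rw [tabG2_chk.group_eq]
  set S := tabG2_chk.st F
  have h3 : S.R3 := St.r3_of_adj _ (tabG2_chk.adj F)
  let ν : Fˣ × Fˣ →* (Fin 2 → Fˣ) := MonoidHom.mk' (fun p => ![p.1, p.2]) fun x y => by
    funext i; fin_cases i <;> simp
  have hν : Function.Surjective ν := fun c => ⟨(c 0, c 1), by funext i; fin_cases i <;> rfl⟩
  refine noA8 (powG2 F) ?_ (ndvd ?_) ((S.hh h3).comp ν) ?_
  · rw [inf_eq_left.2 S.N_le_Gr, relIndex, ← S.ker_piW, index_ker, MonoidHom.range_eq_top.2 S.piW_surjective,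
      card_top]
    exact cardWG2
  · obtain ⟨a, -, ha⟩ := FiniteField.card F 5
    rw [idxG2 F ha]
    push_cast
    have := five_pow a
    push_cast at this
    rcases this with h | h <;> rw [h] <;> decide
  · erw [MonoidHom.range_comp, MonoidHom.range_eq_top.2 hν,
      ← MonoidHom.range_eq_map, S.range_hh, inf_eq_left.2 S.H_le_Gr]

theorem ctlF4 : Ctl ((tabF4_chk.st F).H.subgroupOf (tabF4_chk.st F).Gr) [(8, 1), (6, 1), (6, -1)] := by
  set S := tabF4_chk.st F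
  have h3 : S.R3 := St.r3_of_adj _ (tabF4_chk.adj F)
  refine (dec_Gr _).ctl fun n hn => ?_
  obtain ⟨w, hw, h⟩ := S.exists_rep hn.1
  have k : ∀ e, w ^ e = 1 → ∀ x ∈ S.H, n ^ e * x * (n ^ e)⁻¹ = x ^ (1 : ℤ) := fun e he x hx => by
    rw [zpow_one, (S.commute_H h3 (S.mem_H_of_rep_one (pow_mem hn.1 _) (he ▸ rep_pow h e)) hx).eq,
      mul_inv_cancel_right]
  rcases expF4 (RS.W_le_Aut _ hw) with H | H | H
  · exact ⟨(6, 1), by simp, k _ H⟩
  · exact ⟨(8, 1), by simp, k _ H⟩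
  · exact ⟨(6, -1), by simp, fun x hx => (rep_inv h3 (rep_pow h 6) H x hx).trans (zpow_neg_one x).symm⟩

theorem F4_idx {s : ℕ} (h : (Fintype.card F : ZMod s) = 1) (hs : ((1152 : ℕ) : ZMod s) ≠ 0) :
    ¬ s ∣ ((tabF4_chk.st F).H.subgroupOf (tabF4_chk.st F).Gr).index := by
  refine ndvd ?_
  rw [← relIndex, idxF4 F rfl]
  push_cast
  simp only [h, one_pow, Finset.sum_const, Finset.card_range, nsmul_one]
  convert hs using 1; push_cast; ring

theorem F4_11 (h : (Fintype.card F : ZMod 11) = 1) : ¬ Sec (alternatingGroup (Fin 11)) (chevF4.group F) := by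
  rw [tabF4_chk.group_eq]
  exact not_A11 (ctlF4 F) (F4_idx F h (by decide))

theorem F4_12 (h : (Fintype.card F : ZMod 7) = 1) (h' : (Fintype.card F : ZMod 5) = 1) :
    ¬ Sec (alternatingGroup (Fin 12)) (chevF4.group F) := by
  rw [tabF4_chk.group_eq]
  exact not_A12 (ctlF4 F) (fun x hx y hy => Subtype.ext
    (St.commute_H _ (St.r3_of_adj _ (tabF4_chk.adj F)) hx hy).eq) (F4_idx F h (by decide)) (F4_idx F h' (by decide))

end

section
variable {K : Type*} [Field K] [Fintype K] {q : ℕ}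

theorem D4_core (hq1 : 1 < q) (hK : Fintype.card K = q ^ 3) (f : K →+* K) (hf : ∀ t, f (f (f t)) = t)
    (hq : ∀ t, f t = t ^ q) :
    (∀ n ∈ (tabD4_chk.grp K).N ⊓ (D4.z f hf).G1 (D4.O f hf), n ^ 6 ∈ (tabD4_chk.grp K).H) ∧
    (tabD4_chk.grp K).H.relIndex ((tabD4_chk.grp K).N ⊓ (D4.z f hf).G1 (D4.O f hf)) = 12 ∧
    (tabD4_chk.grp K).H.relIndex ((D4.z f hf).G1 (D4.O f hf)) =
      q ^ 12 * (q + 1) ^ 2 * (q ^ 2 + 1 - q) * (q ^ 8 + q ^ 4 + 1) := by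
  obtain ⟨e⟩ := exists_dihedral (D4.O f hf) (by norm_num : 2 < 6) (D4.ord f hf 0 1)
  obtain ⟨φ, h1, h2⟩ := (D4.sub f hf).exists_piW
  refine ⟨pow_mem_of_hom φ h2 fun w => ?_, ?_, relIndex_eq (D4.card_H f hf hq1 hK hq) ?_
    (mul_ne_zero (pow_ne_zero _ (by omega)) (by omega))⟩
  · obtain ⟨x, rfl⟩ := e.surjective w
    rw [← map_pow, (by decide : ∀ x : DihedralGroup 6, x ^ 6 = 1), map_one]
  · rw [relIndex_of_hom φ h1 h2, ← Nat.card_congr e.toEquiv, DihedralGroup.nat_card]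
  · rw [D4.card_G1 f hf hq1 hK hq, sub1 (by omega) 2, sub1 (by omega) 6]
    obtain ⟨k, rfl⟩ : ∃ k, q = k + 1 := ⟨q - 1, by omega⟩
    rw [show (k + 1) ^ 2 + 1 - (k + 1) = k ^ 2 + k + 1 from Nat.sub_eq_of_eq_add (by ring)]
    simp only [Finset.sum_range_succ, Finset.sum_range_zero]; ring

theorem D4_7 (hq : IsPrimePow q) (hK : Fintype.card K = q ^ 3) (h : (q : ZMod 5) = 1) :
    ¬ Sec (alternatingGroup (Fin 7)) (twistedD4 K q) := fun hs => by
  obtain ⟨f, hf, hq'⟩ := D4.exists_f hq hK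
  obtain ⟨h1, -, h2⟩ := D4_core hq.one_lt hK f hf hq'
  rw [D4.gen_eq f hf hq'] at hs
  refine not_A7_5 ((dec_tw _ (D4.sub f hf)).ctl1 (tabD4_chk.grp_r3 K) h1) (ndvd ?_)
    (hs.unmap (subtype_injective _))
  rw [← relIndex, h2]
  push_cast [Nat.cast_sub (show q ≤ q ^ 2 + 1 by nlinarith)]; rw [h]; decide

theorem D4_8 {a : ℕ} (ha : 1 ≤ a) (hK : Fintype.card K = (5 ^ a) ^ 3) :
    ¬ Sec (alternatingGroup (Fin 8)) (twistedD4 K (5 ^ a)) := fun hs => by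
  have hq : IsPrimePow (5 ^ a) := ⟨5, a, Nat.prime_five.prime, ha, rfl⟩
  have h5 := five_pow a
  generalize 5 ^ a = q at *
  obtain ⟨f, hf, hq'⟩ := D4.exists_f hq hK
  obtain ⟨h1, h2, h3⟩ := D4_core hq.one_lt hK f hf hq'
  rw [D4.gen_eq f hf hq'] at hs
  let u : Kˣ →* Kˣ := Units.map f.toMonoidHom
  let B : Subgroup Kˣ := u.eqLocus (MonoidHom.id _)
  let ν : B × Kˣ →* (Fin 4 → Kˣ) := MonoidHom.mk' (fun p => ![p.2, p.1, u p.2, u (u p.2)]) fun x y => by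
    funext i; fin_cases i <;> simp
  refine noA8 h1 h2 (ndvd ?_) (((tabD4_chk.grp K).hh (tabD4_chk.grp_r3 K)).comp ν) ?_ (hs.unmap (subtype_injective _))
  · rw [h3]
    push_cast [Nat.cast_sub (show q ≤ q ^ 2 + 1 by nlinarith)]
    rcases h5 with h | h <;> rw [h] <;> decide
  · erw [MonoidHom.range_comp, ((D4.td f hf).card_H (tabD4_chk.grp_Gr K) (tabD4_chk.grp_adj K) (tabD4_chk.stb_Gr K)
      (scD4 K) (tabD4_chk.grp_r3 K) (D4.O f hf) (D4.hT_mem f hf)).1]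
    congr 1; ext c
    refine Iff.trans ⟨?_, fun ⟨k1, k2, k3⟩ => ⟨(⟨_, Units.ext k1⟩, c (0 : Fin 4)), ?_⟩⟩ (D4.mem_T f hf).symm
    · rintro ⟨p, rfl⟩
      exact ⟨congrArg Units.val p.1.2, rfl, rfl⟩
    · funext i
      fin_cases i
      exacts [rfl, rfl, Units.ext k2.symm, Units.ext k3.symm]

theorem D4_ext {L : Type*} [Field L] (φ : K →+* L) (hK : Fintype.card K = q ^ 3) {A : Type*} [Group A]
    (h : Sec A (twistedD4 K q)) : Sec A (twistedD4 L (q ^ 4)) := by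
  have e : ∀ t : K, t ^ q ^ 4 = t ^ q := fun t => by
    rw [pow_succ q 3, pow_mul, ← hK, FiniteField.pow_card]
  refine Sec.gen φ h ?_
  rintro _ (⟨t, ht, r, hr, rfl⟩ | ⟨t, r, hr, rfl⟩)
  · exact Or.inl ⟨φ t, by rw [← map_pow, e, ht], r, hr, rfl⟩
  · refine Or.inr ⟨φ t, r, hr, ?_⟩
    rw [← map_pow, ← map_pow, sq (q ^ 4), pow_mul, e, e, ← pow_mul, ← sq]; rfl

theorem R_7 {m : ℕ} (hK : Fintype.card K = 2 ^ (2 * m + 1)) :
    ¬ Sec (alternatingGroup (Fin 7)) (twistedF4 K (2 ^ m)) := fun hs => by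
  obtain ⟨h2, f, hf, hq⟩ := F4.exists_f hK
  have h7 : ((2 ^ (2 * m + 1) : ℕ) : ZMod 7) ^ 3 = 1 := by
    push_cast; rw [← pow_mul, mul_comm, pow_mul, show (2 : ZMod 7) ^ 3 = 1 by decide, one_pow]
  generalize 2 ^ (2 * m + 1) = q at *
  have h1 : 1 < q := hK ▸ Fintype.one_lt_card
  obtain ⟨e⟩ := exists_dihedral (F4.O h2 f hf) (by norm_num : 2 < 8) (F4.ord h2 f hf 0 1)
  obtain ⟨φ, -, h3⟩ := (F4.sub h2 f hf).exists_piW
  rw [F4.gen_eq h2 f hf hq] at hs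
  refine not_A7_7 ((dec_tw _ (F4.sub h2 f hf)).ctl1 (tabF4_chk.grp_r3 K) (pow_mem_of_hom φ h3 fun w => ?_)) (ndvd ?_)
    (hs.unmap (subtype_injective _))
  · obtain ⟨x, rfl⟩ := e.surjective w
    rw [← map_pow, (by decide : ∀ x : DihedralGroup 8, x ^ 8 = 1), map_one]
  · rw [← relIndex, relIndex_eq (b := q ^ 12 * (q ^ 3 + 1) * (q ^ 3 + q ^ 2 + q + 1) * (q ^ 6 + 1)) (F4.card_H h2 f hf hK) (by
      rw [F4.card_G1 h2 f hf hK, sub1 (by omega) 4]
      simp only [Finset.sum_range_succ, Finset.sum_range_zero]; ring) (pow_ne_zero _ (by omega))]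
    push_cast
    revert h7; generalize (q : ZMod 7) = x; revert x; decide

end

end Lead.AS
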