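import Cfsg.Agent.Lead.Gam2

/-!
Goldschmidt amalgams: the critical distance.
-/

set_option autoImplicit false
set_option linter.unusedSectionVars false

namespace Lead.Gam

open H10 Cfsg
open scoped commutatorElement

variable {G : Type*} [Group G] [Finite G] {V : Type*} [MulAction G V] {Γ : SimpleGraph V}

local notation "𝐆" a:max => MulAction.stabilizer G a
local notation "𝐐" a:max => gQ G a
local notation "𝐙" a:max => gZ G a
local notation "𝐕" a:max => gV G Γ a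

/-- `b` is the critical distance -/
structure CR (G : Type*) [Group G] {V : Type*} [MulAction G V] (Γ : SimpleGraph V) (b : ℕ) : Prop
    extends GS G Γ where
  two : 2 ≤ b
  lt : ∀ δ μ : V, Γ.dist δ μ < b → gZ G δ ≤ gQ G μ
  crit : ∃ p, BL G Γ p ∧ ¬ gZ G (p (-1)) ≤ gQ G (p (b - 1))

theorem GS.exCR (h : GS G Γ) : ∃ b, CR G Γ b := by
  obtain ⟨b, h1, a, c, h2, h3⟩ := h.exists_crit
  have b0 : b ≠ 0 := fun e => h3 (h.conn.dist_eq_zero_iff.1 (h2.trans e) ▸ h.Z_le_Q a)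
  have b1 : b ≠ 1 := fun e => h3 (h.F2 (SimpleGraph.dist_eq_one_iff_adj.1 (h2.trans e)))
  have hA : ¬ B G a := fun hB => by
    obtain ⟨d, k1, k2⟩ := h.step' (a := a) (b := c) (by omega)
    exact h3 ((h.ZB_le k1.symm hB).trans (h1 _ _ (by omega)))
  obtain ⟨p, hp, e1, e2⟩ := h.geo b (-1) ⟨fun k => absurd k hA, fun k => by omega⟩ h2
  refine ⟨b, h, by omega, h1, p, hp, ?_⟩
  rwa [e1, show (b : ℤ) - 1 = -1 + b by omega, e2]

namespace CR

variable {b : ℕ} (h : CR G Γ b)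
include h

theorem ZG {δ μ : V} (hd : Γ.dist δ μ ≤ b) : 𝐙 δ ≤ 𝐆 μ := h.toAG.Z_le_G h.lt hd

theorem VQ {δ μ : V} (hd : Γ.dist δ μ + 1 < b) : 𝐕 δ ≤ 𝐐 μ := gV_le fun c hc =>
  h.lt _ _ (by have := h.dist_adj μ hc.symm; omega)

theorem VG {δ μ : V} (hd : Γ.dist δ μ + 1 ≤ b) : 𝐕 δ ≤ 𝐆 μ := gV_le fun c hc =>
  h.ZG (by have := h.dist_adj μ hc.symm; omega)

variable {p : ℤ → V} (hp : BL G Γ p)
include hp

theorem lZQ (i j : ℤ) (hd : (i - j).natAbs < b) : 𝐙 (p i) ≤ 𝐐 (p j) :=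
  h.lt _ _ (by have := h.dl hp i j; omega)

theorem lZG (i j : ℤ) (hd : (i - j).natAbs ≤ b) : 𝐙 (p i) ≤ 𝐆 (p j) :=
  h.ZG (by have := h.dl hp i j; omega)

theorem lVQ (i j : ℤ) (hd : (i - j).natAbs + 1 < b) : 𝐕 (p i) ≤ 𝐐 (p j) :=
  h.VQ (by have := h.dl hp i j; omega)

theorem lVG (i j : ℤ) (hd : (i - j).natAbs + 1 ≤ b) : 𝐕 (p i) ≤ 𝐆 (p j) :=
  h.VG (by have := h.dl hp i j; omega)

/-- distance from a neighbour of a point of the line -/
theorem dn {c : V} {i : ℤ} (hc : Γ.Adj (p i) c) (j : ℤ) : Γ.dist c (p j) ≤ (i - j).natAbs + 1 := by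
  have := h.dist_adj (p j) hc.symm
  have := h.dl hp i j
  omega

theorem dn' {c : V} {i : ℤ} (hc : Γ.Adj (p i) c) (j : ℤ) : Γ.dist (p j) c ≤ (i - j).natAbs + 1 := by
  rw [Γ.dist_comm]; exact h.dn hp hc j

end CR

end Lead.Gam
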