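import Cfsg.Agent.Lead.Gam6

/-!
Goldschmidt amalgams, critical distance three: data for the final bound.
-/

set_option autoImplicit false
set_option linter.unusedSectionVars false

namespace Lead.Gam

open H10 Cfsg
open scoped commutatorElement

variable {G : Type*} [Group G] [Finite G] {V : Type*} [MulAction G V] {Γ : SimpleGraph V}

local notation "𝐆" a:max => MulAction.stabilizer G a
local notation "𝐐" a:max => gQ G a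
local notation "𝐙" a:max => gZ G a
local notation "𝐕" a:max => gV G Γ a

namespace OD

variable {b : ℕ} {M : ℤ} (h : OD G Γ b M)
include h

theorem VE {c a : V} (hB : B G c) (ha : Γ.Adj c a) {w w' : G} (hw : w ∈ 𝐕 c) (hw' : w' ∈ 𝐕 c)
    (n : w ∉ 𝐙 a) (n' : w' ∉ 𝐙 a) : w⁻¹ * w' ∈ 𝐙 a := by
  obtain ⟨d, hd, hne⟩ := h.exists_ne ha
  obtain ⟨x, hx, hx'⟩ := h.exZA hd.symm hB
  have xV := le_gV hd hx
  have zc := h.ZB_le ha.symm hB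
  let X : Subgroup G :=
    { carrier := {y | y ∈ 𝐕 c ∧ (y ∈ 𝐙 a ∨ x * y ∈ 𝐙 a)}
      one_mem' := ⟨one_mem _, Or.inl (one_mem _)⟩
      mul_mem' := by
        rintro y z ⟨y1, y2 | y2⟩ ⟨z1, z2 | z2⟩
        · exact ⟨mul_mem y1 z1, Or.inl (mul_mem y2 z2)⟩
        · refine ⟨mul_mem y1 z1, Or.inr ?_⟩
          rw [← mul_assoc, (h.Vc xV y1).eq, mul_assoc]; exact mul_mem y2 z2
        · refine ⟨mul_mem y1 z1, Or.inr ?_⟩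
          rw [← mul_assoc]; exact mul_mem y2 z2
        · refine ⟨mul_mem y1 z1, Or.inl ?_⟩
          have := mul_mem y2 z2
          rwa [(h.Vc xV y1).eq, mul_assoc, ← mul_assoc x, h.V2 xV, one_mul] at this
      inv_mem' := by
        rintro y ⟨y1, y2⟩
        rw [inv_eq_of_mul_eq_one_right (h.V2 y1)]
        exact ⟨y1, y2⟩ }
  have hX : 𝐕 c ≤ X := gV_le fun e he y hy => ⟨le_gV he hy, by
    by_cases k : y ∈ 𝐙 c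
    · exact Or.inl (zc k)
    by_cases k1 : e = a
    · exact Or.inl (k1 ▸ hy)
    by_cases k2 : e = d
    · exact Or.inr (zc (h.A3 hd.symm hB hx (k2 ▸ hy) hx' k))
    · exact Or.inr (h.e8 c a _ hB ha ⟨d, e, x, y, hd, he, hne, k1, Ne.symm k2, hx, hx', hy, k, rfl⟩)⟩
  have := mul_mem (inv_mem ((hX hw).2.resolve_left n)) ((hX hw').2.resolve_left n')
  simpa [mul_assoc] using this

theorem P1 {a : V} (g : G) (c : V) (w : G) (hg : g ∈ 𝐆 a) (hw : w ∈ 𝐕 c ∧ w ∉ 𝐙 a) :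
    g * w * g⁻¹ ∈ 𝐕 (g • c) ∧ g * w * g⁻¹ ∉ 𝐙 a :=
  ⟨h.cV rfl hw.1, fun e => hw.2 (cZ' (hg : g • a = a) e)⟩

theorem P2 {a : V} (ha : ¬ B G a) (c : V) (w w' : G) (hc : Γ.Adj a c) (hw : w ∈ 𝐕 c ∧ w ∉ 𝐙 a)
    (hw' : w' ∈ 𝐕 c ∧ w' ∉ 𝐙 a) : w⁻¹ * w' ∈ 𝐙 a :=
  h.VE (h.isB hc ha) hc.symm hw.1 hw'.1 hw.2 hw'.2

theorem P3 {a : V} (c : V) (w : G) (hc : Γ.Adj a c) (hw : w ∈ 𝐕 c ∧ w ∉ 𝐙 a) :
    w ∈ 𝐐 a ∧ w * w ∈ 𝐙 a := ⟨h.VQa hc.symm hw.1, by rw [h.V2 hw.1]; exact one_mem _⟩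

end OD

namespace OD

variable {b : ℕ} (h : OD G Γ b 2)
include h

theorem P4 {a c : V} (hac : Γ.Adj a c) (hc : B G c) :
    ∃ d w, Γ.Adj a d ∧ (w ∈ 𝐕 d ∧ w ∉ 𝐙 a) ∧ w ∉ 𝐐 c := by
  obtain ⟨p, hp, rfl, rfl⟩ := h.exBL hc hac.symm
  obtain ⟨w, hw, hw'⟩ := SetLike.not_le_iff_exists.1 (h.allS' hp)
  exact ⟨p 2, w, hp.adj 1 2 rfl, ⟨hw, fun e => hw' (h.F2 hac e)⟩, hw'⟩

theorem yy {p : ℤ → V} (hp : BL G Γ p) {x : G} (hx : x ∈ 𝐙 (p 1)) (hx' : x ∉ 𝐙 (p 0)) :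
    ∃ y ∈ 𝐕 (p (-2)), y ∉ 𝐐 (p 0) ∧ y * (x * y * x⁻¹) ∈ 𝐙 (p (-1)) ∧
      y * (x * y * x⁻¹) ∉ 𝐙 (p 0) ∧ y * (x * y * x⁻¹) ∉ 𝐙 (p (-2)) := by
  have hq := hp.shift (-2) rfl
  obtain ⟨y, hy, hy'⟩ := h.exZA (hp.adj (-3) (-2) rfl) (hp.b _ rfl)
  have f1 : Fm G Γ (p (-2)) (p (-1)) _ := h.RR1 hq hy hy' hx hx'
  have f2 : Fm G Γ (p 0) (p (-1)) _ := h.RR2 hq hy hy' hx hx'
  exact ⟨y, le_gV (hp.adj' (-2) (-3) rfl) hy,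
    h.R1 hq (hp.adj' (-2) (-3) rfl) (hp.ne _ _ rfl) hy hy',
    h.e8 _ _ _ (hp.b _ rfl) (hp.adj (-2) (-1) rfl) f1, h.fm_not (hp.b _ rfl) f2,
    h.fm_not (hp.b _ rfl) f1⟩

theorem P5 {a c : V} (hac : Γ.Adj a c) (hc : B G c) : ∃ t ∈ 𝐆 a ⊓ 𝐆 c, t ∉ 𝐐 a ∧
    ∀ q ∈ 𝐐 a ⊓ 𝐐 c, ⁅q, t⁆ ∈ 𝐙 a ⊔
      Subgroup.closure {w | ∃ d, Γ.Adj a d ∧ (w ∈ 𝐕 d ∧ w ∉ 𝐙 a)} := by
  obtain ⟨p, hp, rfl, rfl⟩ := h.exBL hc hac.symm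
  have a1 := hp.adj (-1) 0 rfl
  have a2 := hp.adj' (-1) (-2) rfl
  have n1 := hp.ne (-2) 0 rfl
  have hA := hp.nb (-1) rfl
  obtain ⟨l, l1, l2, l3⟩ := h.exists_third a1 a2 n1
  obtain ⟨r, hr, e1, e2⟩ := h.modL hp (-1) l1 l3
  obtain ⟨x, hx, hx'⟩ := h.exZA hac hc
  obtain ⟨y, hy, yQ, m1, m2, m3⟩ := h.yy hp hx hx'
  obtain ⟨z, hz, zQ, k1, k2, k3⟩ := h.yy hr (x := x) (by rwa [e1 _ (by omega)])
    (by rwa [e1 _ (by omega)])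
  rw [show r (-2) = l from e2] at hz k3
  rw [e1 0 (by omega)] at zQ k2
  rw [e1 _ le_rfl] at k1
  have yq := h.VQa a2.symm hy
  have zq := h.VQa l1.symm hz
  have tQ : y * z ∈ 𝐐 (p 0) :=
    h.mulQ a1.symm (h.Q_le_T' a1.symm yq) (h.Q_le_T' a1.symm zq) yQ zQ
  have yn : y ∉ 𝐙 (p (-1)) := fun e => yQ (h.F2 a1 e)
  have zn : z ∉ 𝐙 (p (-1)) := fun e => zQ (h.F2 a1 e)
  have y2 := inv_eq_of_mul_eq_one_right (h.V2 hy)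
  have z2 := inv_eq_of_mul_eq_one_right (h.V2 hz)
  have x2 := inv_eq_of_mul_eq_one_right (h.mul_self hx)
  refine ⟨y * z, h.Q_le_T' hac tQ, fun tq => ?_, fun q hq => ?_⟩
  · have u1 := h.A4 a1 a2 l1 n1.symm l3 l2 hc m1 m2 m3
    have u2 := h.A4 a1 l1 a2 l3.symm n1 l2.symm hc k1 k2 k3
    have e : y * (x * y * x⁻¹) = z * (x * z * x⁻¹) := by
      have c1 := (h.cZQ hx tq).eq
      have c2 : y * x * y = z * x * z := by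
        calc y * x * y = y * (x * (y * z)) * z⁻¹ := by group
          _ = (y * y) * z * x * z⁻¹ := by rw [c1]; group
          _ = _ := by rw [h.V2 hy, z2, one_mul]
      rw [← mul_assoc, ← mul_assoc, c2]; group
    exact m2 ((h.sib a2 l1 l2.symm (hp.b _ rfl) (e ▸ u2) u1) ▸ one_mem _)
  · have hW : 𝐙 (p (-1)) ≤ 𝐙 (p 1) ⊔
        Subgroup.closure {w | ∃ d, Γ.Adj (p 1) d ∧ (w ∈ 𝐕 d ∧ w ∉ 𝐙 (p 1))} := fun w hw => by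
      by_cases k : w ∈ 𝐙 (p 1)
      · exact Subgroup.mem_sup_left k
      · exact Subgroup.mem_sup_right (Subgroup.subset_closure ⟨p 0, hac, le_gV a1.symm hw, k⟩)
    refine hW ?_
    have qT := h.Q_le_T' a1 hq.2
    have py := h.P1 q _ y qT.1 ⟨hy, yn⟩
    have pz := h.P1 q _ z qT.1 ⟨hz, zn⟩
    have cz : ∀ e ∈ 𝐙 (p (-1)), ∀ s ∈ 𝐐 (p (-1)), s * e * s⁻¹ ∈ 𝐙 (p (-1)) := fun e he s hs =>
      cZ (gQ_le _ hs : s • p (-1) = p (-1)) he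
    by_cases k : q ∈ 𝐐 (p (-1))
    · rw [(h.Q_le a2 k : q • p (-2) = _)] at py
      rw [(h.Q_le l1 k : q • l = _)] at pz
      have := mul_mem (cz _ (h.P2 hA _ _ _ a2 ⟨hy, yn⟩ py) _ yq)
        (cz _ (cz _ (h.P2 hA _ _ _ l1 ⟨hz, zn⟩ pz) _ zq) _ yq)
      convert this using 1
      rw [commutatorElement_def]; group
    · rw [h.smul_eq a1 a2 l1 n1 l3 l2.symm qT k] at py
      rw [h.smul_eq a1 l1 a2 l3 n1 l2 qT k] at pz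
      have pw := h.P1 z _ y (gQ_le _ zq) ⟨hy, yn⟩
      rw [(h.Q_le a2 zq : z • p (-2) = _)] at pw
      have := mul_mem (mul_mem (cz _ (h.P2 hA _ _ _ l1 ⟨hz, zn⟩ py) _ zq)
        (cz _ (cz _ (h.P2 hA _ _ _ a2 ⟨hy, yn⟩ pz) _ yq) _ zq))
        (cz _ (h.P2 hA _ _ _ a2 ⟨hy, yn⟩ pw) _ yq)
      convert this using 1
      rw [commutatorElement_def]; group

end OD

end Lead.Gam
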