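import Cfsg.Agent.Lead.AS1

/-! Sections: alternating groups. -/

set_option autoImplicit false

namespace Lead.AS
open Subgroup

/-- `A` is a section of `G` -/
def Sec (A G : Type*) [Group A] [Group G] : Prop := ∃ (H : Subgroup G) (f : H →* A), Function.Surjective f

variable {A A' G G' : Type*} [Group A] [Group A'] [Group G] [Group G']

theorem Sec.of {H : Subgroup G} {K : Subgroup H} [K.Normal] (h : Nonempty (H ⧸ K ≃* A)) : Sec A G :=
  h.elim fun e => ⟨H, e.toMonoidHom.comp (QuotientGroup.mk' K), e.surjective.comp (QuotientGroup.mk'_surjective K)⟩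

theorem Sec.right (h : Sec A G) (i : G →* G') (hi : Function.Injective i) : Sec A G' := by
  obtain ⟨H, f, hf⟩ := h
  exact ⟨H.map i, f.comp (H.equivMapOfInjective i hi).symm.toMonoidHom,
    hf.comp (H.equivMapOfInjective i hi).symm.surjective⟩

theorem Sec.left (h : Sec A G) (i : A' →* A) (hi : Function.Injective i) : Sec A' G := by
  obtain ⟨H, f, hf⟩ := h
  have : Sec A' H := ⟨i.range.comap f, (MonoidHom.ofInjective hi).symm.toMonoidHom.comp (f.subgroupComap i.range),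
    (MonoidHom.ofInjective hi).symm.surjective.comp (f.subgroupComap_surjective_of_surjective _ hf)⟩
  exact this.right _ H.subtype_injective

theorem Sec.card_dvd (h : Sec A G) : Nat.card A ∣ Nat.card G := by
  obtain ⟨H, f, hf⟩ := h
  exact (card_dvd_of_surjective f hf).trans H.card_subgroup_dvd_card

theorem Sec.alt {n r : ℕ} (h : Sec (alternatingGroup (Fin r)) G) (hn : n ≤ r) : Sec (alternatingGroup (Fin n)) G := by
  classical
  set e := Equiv.ofInjective _ (Fin.castLEEmb hn).2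
  refine h.left (((Equiv.Perm.extendDomainHom e).comp (alternatingGroup _).subtype).codRestrict _
    fun g => ?_) fun a b h => Subtype.ext (Equiv.Perm.extendDomainHom_injective e (congrArg Subtype.val h))
  exact (Equiv.Perm.sign_extendDomain g.1 e).trans g.2

theorem Ctl.alt1 [Finite G] {T : Subgroup G} {L : List (ℕ × ℤ)} (h : Ctl T L) {s n : ℕ} [Fact s.Prime]
    (hT : ¬ s ∣ T.index) (hs : Sec (alternatingGroup (Fin n)) G) {c γ : Equiv.Perm (Fin n)} {b : ℕ}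
    (h1 : c.sign = 1 ∧ γ.sign = 1 ∧ c ^ s = 1 ∧ γ * c * γ⁻¹ = c ^ b) : ∃ a ∈ L, c ^ b ^ a.1 = c ^ a.2 := by
  obtain ⟨H, f, hf⟩ := hs
  obtain ⟨a, ha, e⟩ := h.sec1 hT f hf (c := ⟨c, h1.1⟩) (γ := ⟨γ, h1.2.1⟩) (b := b) (Subtype.ext h1.2.2.1)
    (Subtype.ext h1.2.2.2)
  exact ⟨a, ha, congrArg Subtype.val e⟩

theorem pow_mod' {x : A} {s : ℕ} (h : x ^ s = 1) (n : ℕ) : x ^ n = x ^ (n % s) := pow_eq_pow_mod n h

def c5 : Equiv.Perm (Fin 7) := ⟨![1, 2, 3, 4, 0, 5, 6], ![4, 0, 1, 2, 3, 5, 6], by decide, by decide⟩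
def g5 : Equiv.Perm (Fin 7) := ⟨![0, 2, 4, 1, 3, 6, 5], ![0, 3, 1, 4, 2, 6, 5], by decide, by decide⟩
def c7 : Equiv.Perm (Fin 7) := ⟨![1, 2, 3, 4, 5, 6, 0], ![6, 0, 1, 2, 3, 4, 5], by decide, by decide⟩
def g7 : Equiv.Perm (Fin 7) := ⟨![0, 2, 4, 6, 1, 3, 5], ![0, 4, 1, 5, 2, 6, 3], by decide, by decide⟩
def c11 : Equiv.Perm (Fin 11) := ⟨![1, 2, 3, 4, 5, 6, 7, 8, 9, 10, 0], ![10, 0, 1, 2, 3, 4, 5, 6, 7, 8, 9], by decide, by decide⟩
def g11 : Equiv.Perm (Fin 11) := ⟨![0, 3, 6, 9, 1, 4, 7, 10, 2, 5, 8], ![0, 4, 8, 1, 5, 9, 2, 6, 10, 3, 7], by decide, by decide⟩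
def c12 : Equiv.Perm (Fin 12) := ⟨![1, 2, 3, 4, 5, 6, 0, 7, 8, 9, 10, 11], ![6, 0, 1, 2, 3, 4, 5, 7, 8, 9, 10, 11], by decide, by decide⟩
def d12 : Equiv.Perm (Fin 12) := ⟨![0, 1, 2, 3, 4, 5, 6, 8, 9, 10, 11, 7], ![0, 1, 2, 3, 4, 5, 6, 11, 7, 8, 9, 10], by decide, by decide⟩
def g12 : Equiv.Perm (Fin 12) := ⟨![0, 3, 6, 2, 5, 1, 4, 7, 9, 11, 8, 10], ![0, 5, 3, 1, 6, 4, 2, 7, 10, 8, 11, 9], by decide, by decide⟩
def x1 : Equiv.Perm (Fin 8) := ⟨![2, 3, 1, 0, 5, 4, 6, 7], ![3, 2, 0, 1, 5, 4, 6, 7], by decide, by decide⟩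
def x2 : Equiv.Perm (Fin 8) := ⟨![1, 0, 2, 3, 6, 7, 5, 4], ![1, 0, 2, 3, 7, 6, 4, 5], by decide, by decide⟩
def x3 : Equiv.Perm (Fin 8) := ⟨![4, 5, 6, 7, 2, 3, 0, 1], ![6, 7, 4, 5, 0, 1, 2, 3], by decide, by decide⟩

theorem not_A7_5 [Finite G] {T : Subgroup G} (h : Ctl T [(6, 1)]) (hT : ¬ 5 ∣ T.index) :
    ¬ Sec (alternatingGroup (Fin 7)) G := fun hs => by
  haveI : Fact (Nat.Prime 5) := ⟨by norm_num⟩
  obtain ⟨a, ha, e⟩ := h.alt1 hT hs (c := c5) (γ := g5) (b := 2) (by decide +kernel)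
  rw [List.mem_singleton.1 ha, pow_mod' (s := 5) (by decide +kernel), zpow_one] at e
  revert e; decide +kernel

theorem not_A7_7 [Finite G] {T : Subgroup G} (h : Ctl T [(8, 1)]) (hT : ¬ 7 ∣ T.index) :
    ¬ Sec (alternatingGroup (Fin 7)) G := fun hs => by
  haveI : Fact (Nat.Prime 7) := ⟨by norm_num⟩
  obtain ⟨a, ha, e⟩ := h.alt1 hT hs (c := c7) (γ := g7) (b := 2) (by decide +kernel)
  rw [List.mem_singleton.1 ha, pow_mod' (s := 7) (by decide +kernel), zpow_one] at e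
  revert e; decide +kernel

theorem not_A11 [Finite G] {T : Subgroup G} (h : Ctl T [(8, 1), (6, 1), (6, -1)]) (hT : ¬ 11 ∣ T.index) :
    ¬ Sec (alternatingGroup (Fin 11)) G := fun hs => by
  haveI : Fact (Nat.Prime 11) := ⟨by norm_num⟩
  obtain ⟨a, ha, e⟩ := h.alt1 hT hs (c := c11) (γ := g11) (b := 3) (by decide +kernel)
  rw [pow_mod' (s := 11) (by decide +kernel)] at e
  simp only [List.mem_cons, List.not_mem_nil, or_false] at ha
  rcases ha with rfl | rfl | rfl <;> simp only [zpow_one, zpow_neg] at e <;> revert e <;> decide +kernel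

theorem not_A12 [Finite G] {T : Subgroup G} (h : Ctl T [(8, 1), (6, 1), (6, -1)])
    (hab : ∀ x ∈ T, ∀ y ∈ T, x * y = y * x) (hT : ¬ 7 ∣ T.index) (hT' : ¬ 5 ∣ T.index) :
    ¬ Sec (alternatingGroup (Fin 12)) G := by
  haveI : Fact (Nat.Prime 7) := ⟨by norm_num⟩
  haveI : Fact (Nat.Prime 5) := ⟨by norm_num⟩
  rintro ⟨H, f, hf⟩
  have k : c12.sign = 1 ∧ d12.sign = 1 ∧ g12.sign = 1 ∧ c12 ^ 7 = 1 ∧ d12 ^ 5 = 1 ∧ d12 * c12 * d12⁻¹ = c12 ^ 1 ∧
    g12 * c12 * g12⁻¹ = c12 ^ 3 ∧ g12 * d12 * g12⁻¹ = d12 ^ 2 := by decide +kernel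
  obtain ⟨k1, k2, k3, k4, k5, k6, k7, k8⟩ := k
  obtain ⟨a, ha, e, e'⟩ := h.sec2 hab (s := 7) (t := 5) (by decide) hT hT' f hf (c := ⟨c12, k1⟩) (d := ⟨d12, k2⟩)
    (γ := ⟨g12, k3⟩) (b := 3) (b' := 2) (Subtype.ext k4) (Subtype.ext k5) (Subtype.ext k6) (Subtype.ext k7)
    (Subtype.ext k8)
  have e1 : c12 ^ 3 ^ a.1 = c12 ^ a.2 := congrArg Subtype.val e
  have e2 : d12 ^ 2 ^ a.1 = d12 ^ a.2 := congrArg Subtype.val e'
  rw [pow_mod' k4] at e1
  rw [pow_mod' k5] at e2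
  simp only [List.mem_cons, List.not_mem_nil, or_false] at ha
  rcases ha with rfl | rfl | rfl <;> simp only [zpow_one, zpow_neg] at e1 e2 <;> revert e1 e2 <;> decide +kernel

def toL (g : Equiv.Perm (Fin 8)) : List ℕ := List.ofFn fun i => (g i : ℕ)
def cmp (a b : List ℕ) : List ℕ := b.map fun i => a.getD i 0
theorem toL_mul (g h : Equiv.Perm (Fin 8)) : toL (g * h) = cmp (toL g) (toL h) := by
  simp only [toL, cmp, List.map_ofFn]
  congr 1; funext i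
  simp only [Function.comp_apply, Equiv.Perm.coe_mul]
  generalize h i = j; fin_cases j <;> rfl
theorem toL_inj {g h : Equiv.Perm (Fin 8)} (e : toL g = toL h) : g = h :=
  Equiv.ext fun i => Fin.ext (congrFun (List.ofFn_injective e) i)
def L8 : List (List ℕ) := [[0, 1, 2, 3, 4, 5, 6, 7], [2, 3, 1, 0, 5, 4, 6, 7], [1, 0, 2, 3, 6, 7, 5, 4], [4, 5, 6, 7, 2, 3, 0, 1], [1, 0, 3, 2, 4, 5, 6, 7], [2, 3, 0, 1, 7, 6, 5, 4], [6, 7, 5, 4, 3, 2, 0, 1], [3, 2, 1, 0, 6, 7, 4, 5], [0, 1, 2, 3, 5, 4, 7, 6], [5, 4, 6, 7, 0, 1, 3, 2], [5, 4, 6, 7, 1, 0, 2, 3], [6, 7, 5, 4, 2, 3, 1, 0], [2, 3, 0, 1, 6, 7, 4, 5], [3, 2, 0, 1, 5, 4, 6, 7], [0, 1, 3, 2, 6, 7, 5, 4], [5, 4, 7, 6, 2, 3, 0, 1], [1, 0, 2, 3, 7, 6, 4, 5], [2, 3, 1, 0, 4, 5, 7, 6], [6, 7, 4, 5, 1, 0, 3, 2], [6, 7, 4, 5, 0, 1, 2, 3], [5, 4, 7, 6, 3, 2, 1, 0], [0, 1, 3, 2, 7, 6, 4, 5], [7, 6, 5, 4, 0, 1, 2, 3], [4, 5, 6, 7, 3, 2, 1, 0], [7, 6, 5, 4,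 1, 0, 3, 2], [3, 2, 0, 1, 4, 5, 7, 6], [3, 2, 1, 0, 7, 6, 5, 4], [7, 6, 4, 5, 3, 2, 0, 1], [1, 0, 3, 2, 5, 4, 7, 6], [4, 5, 7, 6, 0, 1, 3, 2], [4, 5, 7, 6, 1, 0, 2, 3], [7, 6, 4, 5, 2, 3, 1, 0]]
theorem L8_chk : ∀ l ∈ L8, cmp (toL x1) l ∈ L8 ∧ cmp (toL x2) l ∈ L8 ∧ cmp (toL x3) l ∈ L8 ∧
    cmp (cmp l l) (cmp l l) = toL 1 := by decide +kernel

theorem pgroup8 : IsPGroup 2 (closure {x1, x2, x3}) := by
  have key : ∀ g ∈ closure {x1, x2, x3}, toL g ∈ L8 := by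
    have k1 : ∀ x ∈ ({x1, x2, x3} : Set _), ∀ g, toL g ∈ L8 → toL (x * g) ∈ L8 := by
      rintro _ (rfl | rfl | rfl) g hg <;> rw [toL_mul]
      exacts [(L8_chk _ hg).1, (L8_chk _ hg).2.1, (L8_chk _ hg).2.2.1]
    intro g hg
    induction hg using closure_induction_left with
    | one => decide +kernel
    | mul_left x hx y _ ih => exact k1 x hx y ih
    | inv_mul_cancel x hx y _ ih =>
      have : x⁻¹ * y = x * (x * (x * y)) := by
        have : x⁻¹ = x * x * x := by rcases hx with rfl | rfl | rfl <;> decide +kernel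
        rw [this]; group
      rw [this]; exact k1 x hx _ (k1 x hx _ (k1 x hx _ ih))
  rintro ⟨g, hg⟩
  refine ⟨2, Subtype.ext (toL_inj ?_)⟩
  change toL (g ^ 2 ^ 2) = toL 1
  rw [show g ^ 2 ^ 2 = g * g * (g * g) by norm_num [pow_succ, mul_assoc], toL_mul, toL_mul]
  exact (L8_chk _ (key g hg)).2.2.2

/-- number of solutions of `x ^ 2 = 1` -/
noncomputable def om (B : Type*) [CommGroup B] : ℕ := Nat.card (powMonoidHom 2 : B →* B).ker

theorem om_inj {B C : Type*} [CommGroup B] [CommGroup C] [Finite C] (i : B →* C) (hi : Function.Injective i) :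
    om B ≤ om C := Nat.card_le_card_of_injective
  (fun x => ⟨i x, by have := congrArg i x.2; simpa using this⟩) fun _ _ e => Subtype.ext (hi (congrArg Subtype.val e))

theorem om_surj {B C : Type*} [CommGroup B] [CommGroup C] [Finite B] (i : B →* C) (hi : Function.Surjective i) :
    om C ≤ om B := by
  haveI := Finite.of_surjective i hi
  rw [om, om, ← index_range, ← index_range]
  have : (powMonoidHom 2 : B →* B).range.map i = (powMonoidHom 2 : C →* C).range := by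
    ext y
    refine ⟨?_, ?_⟩
    · rintro ⟨_, ⟨x, rfl⟩, rfl⟩; exact ⟨i x, by simp⟩
    · rintro ⟨x, rfl⟩; obtain ⟨x, rfl⟩ := hi x; exact ⟨_, ⟨x, rfl⟩, by simp⟩
  rw [← this]
  exact Nat.le_of_dvd (Nat.pos_of_ne_zero index_ne_zero_of_finite) (index_map_dvd _ hi)

theorem om_cyc {B : Type*} [CommGroup B] [Finite B] [IsCyclic B] : om B ≤ 2 := by
  classical
  haveI := Fintype.ofFinite B
  have := IsCyclic.card_pow_eq_one_le (α := B) (n := 2) two_pos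
  rw [om, Nat.card_eq_fintype_card, Fintype.card_subtype]
  convert this using 3
  simp [MonoidHom.mem_ker]

theorem om_prod {B C : Type*} [CommGroup B] [CommGroup C] [Finite B] [Finite C] : om (B × C) ≤ om B * om C := by
  rw [om, om, om, ← Nat.card_prod]
  exact Nat.card_le_card_of_injective
    (fun x => (⟨x.1.1, congrArg Prod.fst x.2⟩, ⟨x.1.2, congrArg Prod.snd x.2⟩)) fun _ _ e =>
    Subtype.ext (Prod.ext (congrArg (fun z => z.1.1) e) (congrArg (fun z => z.2.1) e))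

theorem not_A8 [Finite G] {N : Subgroup G} (hN : ¬ 2 ∣ N.index) {B C : Type*} [CommGroup B] [CommGroup C] [Finite B]
    [Finite C] [IsCyclic B] [IsCyclic C] (μ : B × C →* G) (h6 : ∀ n ∈ N, n ^ 6 ∈ μ.range) :
    ¬ Sec (alternatingGroup (Fin 8)) G := by
  rintro ⟨H, f, hf⟩
  set φ := (alternatingGroup (Fin 8)).subtype.comp f
  have hs : ∀ x ∈ ({x1, x2, x3} : Set _), x ∈ (⊤ : Subgroup H).map φ := fun x hx => by
    obtain ⟨y, hy⟩ := hf ⟨x, by rcases hx with rfl | rfl | rfl <;> rw [Equiv.Perm.mem_alternatingGroup] <;> decide +kernel⟩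
    exact ⟨y, trivial, congrArg Subtype.val hy⟩
  obtain ⟨R, -, h1, h2, -⟩ := lift φ pgroup8 ((closure_le _).2 hs)
  obtain ⟨u, -, hu⟩ := conj_into_T hN le_top (h1.map H.subtype) le_top
  set ψ : H →* G := (MulAut.conj u).toMonoidHom.comp H.subtype
  have hψ : Function.Injective ψ := (MulAut.conj u).injective.comp H.subtype_injective
  set R0 : Subgroup H := μ.range.comap ψ
  have hsq : ∀ x ∈ R, x ^ 2 ∈ R0 := fun x hx => by
    obtain ⟨k, hk⟩ := h1 ⟨x, hx⟩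
    have h3 : (x ^ 2) ^ 2 ^ k = 1 := by
      have : x ^ 2 ^ k = 1 := congrArg Subtype.val hk
      rw [← pow_mul, mul_comm, pow_mul, this, one_pow]
    obtain ⟨m, hm⟩ := exists_pow_eq_self_of_coprime (x := x ^ 2) (n := 3)
      (((by norm_num : Nat.Coprime 3 2).pow_right k).coprime_dvd_right (orderOf_dvd_of_pow_eq_one h3))
    rw [← hm, ← pow_mul x]
    refine pow_mem ?_ m
    change ψ (x ^ 6) ∈ μ.range
    rw [map_pow]
    exact h6 _ (hu _ ⟨x, hx, rfl⟩)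
  letI : CommGroup μ.range := { (inferInstance : Group μ.range) with
    mul_comm := by
      rintro ⟨_, a, rfl⟩ ⟨_, b, rfl⟩
      exact Subtype.ext (by change μ a * μ b = μ b * μ a; rw [← map_mul, ← map_mul, mul_comm]) }
  letI : CommGroup R0 := { (inferInstance : Group R0) with
    mul_comm := fun a b => Subtype.ext (hψ (by
      have := mul_comm (⟨ψ a, a.2⟩ : μ.range) ⟨ψ b, b.2⟩
      simpa using congrArg Subtype.val this)) }
  letI : CommGroup (R0.map φ) := { (inferInstance : Group (R0.map φ)) with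
    mul_comm := by
      rintro ⟨_, a, ha, rfl⟩ ⟨_, b, hb, rfl⟩
      have := congrArg (fun z : R0 => φ z) (mul_comm (⟨a, ha⟩ : R0) ⟨b, hb⟩)
      exact Subtype.ext (by simpa using this) }
  have k1 : om (R0.map φ) ≤ 4 :=
    (om_surj (φ.subgroupMap R0) (φ.subgroupMap_surjective R0)).trans <|
    (om_inj (ψ.subgroupComap μ.range) fun a b e => Subtype.ext (hψ (congrArg Subtype.val e))).trans <|
    (om_surj μ.rangeRestrict μ.rangeRestrict_surjective).trans <|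
    om_prod.trans (Nat.mul_le_mul om_cyc om_cyc)
  have k2 : ∀ x ∈ ({x1, x2, x3} : Set _), x ^ 2 ∈ R0.map φ := fun x hx => by
    obtain ⟨y, hy, rfl⟩ : x ∈ R.map φ := h2 ▸ subset_closure hx
    exact ⟨_, hsq y hy, map_pow _ _ _⟩
  have a1 := k2 x1 (by simp)
  have a2 := k2 x2 (by simp)
  have a3 := k2 x3 (by simp)
  let v : Fin 5 → Equiv.Perm (Fin 8) := ![1, x1 ^ 2, x2 ^ 2, x3 ^ 2, x1 ^ 2 * x2 ^ 2]
  have hv : ∀ i, v i ∈ R0.map φ := fun i => by
    fin_cases i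
    exacts [one_mem _, a1, a2, a3, mul_mem a1 a2]
  have hv2 : (∀ i, v i ^ 2 = 1) ∧ Function.Injective v := by decide +kernel
  have k3 : Nat.card (Fin 5) ≤ om (R0.map φ) := Nat.card_le_card_of_injective
    (fun i => ⟨⟨v i, hv i⟩, Subtype.ext (hv2.1 i)⟩) fun i j e => hv2.2 (congrArg (fun z => z.1.1) e)
  simp at k3; omega

end Lead.AS
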