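import Cfsg.Agent.Lead.AS2
import Cfsg.Agent.H24.TwD4
import Cfsg.Agent.H24.TwF4
import Cfsg.Agent.H24.Facts

/-! Alternating sections of groups of Lie type: control of fusion in the torus. -/

set_option autoImplicit false
set_option linter.unusedSectionVars false

namespace Lead.AS
open Subgroup H24 Cfsg.Lie

section
variable {ι Φ : Type} [Fintype ι] [DecidableEq ι] [Fintype Φ] [DecidableEq Φ] {R : CD ι Φ} {F : Type*} [Field F]
  {G : Type*} [Group G] (S : St R F G)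

theorem conj_eq {w : Equiv.Perm Φ} {v n u h₁ h₂ : G} (hv : v ∈ S.U) (hn : n ∈ S.N) (hr : S.Rep n w) (hu : u ∈ S.Um w)
    (h1 : h₁ ∈ S.H) (h2 : h₂ ∈ S.H) (hc : v * n * u * h₁ * (v * n * u)⁻¹ = h₂) : n * h₁ * n⁻¹ = h₂ := by
  have hu' : h₁⁻¹ * u * h₁ ∈ S.Um w := (Subgroup.mem_normalizer_iff''.1 (S.H_le_normalizer _ h1) u).1 hu
  have hv' : h₂ * v * h₂⁻¹ ∈ S.U := (Subgroup.mem_normalizer_iff.1 (S.H_le_normalizer _ h2) v).1 hv
  have h3 := S.conj_mem_H hn h1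
  have := (S.canon_unique hr (S.B.mul_mem (S.U_le_B hv) (S.H_le_B h3))
    (S.B.mul_mem (S.U_le_B hv') (S.H_le_B h2)) hu' hu (by rw [← hc]; group)).1
  have h4 := S.eq_one_of_mem_U_H (S.U.mul_mem (S.U.inv_mem hv') hv) (by
    have : (h₂ * v * h₂⁻¹)⁻¹ * v = h₂ * (n * h₁ * n⁻¹)⁻¹ := by
      rw [eq_mul_inv_iff_mul_eq, mul_assoc, this]; group
    rw [this]; exact S.H.mul_mem h2 (S.H.inv_mem h3))
  rw [inv_mul_eq_one.1 h4] at this
  exact mul_left_cancel this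

/-- Bruhat decomposition inside `M` -/
def Dec (M : Subgroup G) : Prop :=
  ∀ g ∈ M, ∃ w, ∃ v ∈ S.U, ∃ n ∈ S.N ⊓ M, S.Rep n w ∧ ∃ u ∈ S.Um w, g = v * n * u

theorem dec_Gr : Dec S S.Gr := fun g hg => by
  obtain ⟨w, hw, h⟩ := S.mem_Gr_iff.1 hg
  obtain ⟨n, hn, hr⟩ := S.exists_N_rep hw
  obtain ⟨b, hb, u, hu, rfl⟩ := S.exists_canon h hn hr
  obtain ⟨v, hv, k, hk, rfl⟩ := S.mem_B_iff.1 hb
  have hn' := S.N.mul_mem (S.H_le_N hk) hn
  exact ⟨w, v, hv, k * n, ⟨hn', S.N_le_Gr hn'⟩, one_mul w ▸ (S.rep_of_mem_H hk).mul hr, u, hu, by group⟩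

theorem dec_tw {z : Tw S} {κ : Type} {O : z.sym.Orb κ} {M : Subgroup G} (h : z.Sub O M) : Dec S M := fun g hg => by
  obtain ⟨w, -, u, hu, n, hn, hr, u', hu', e⟩ := h.exists_decomp hg
  exact ⟨w, u, hu.1, n, hn, hr, u', hu'.1, e⟩

variable {S}

theorem Dec.ctl {M : Subgroup G} (hd : Dec S M) {L : List (ℕ × ℤ)}
    (hL : ∀ n ∈ S.N ⊓ M, ∃ a ∈ L, ∀ x ∈ S.H, n ^ a.1 * x * (n ^ a.1)⁻¹ = x ^ a.2) : Ctl (S.H.subgroupOf M) L := by
  intro g
  obtain ⟨w, v, hv, n, hn, hr, u, hu, e⟩ := hd g g.2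
  obtain ⟨a, ha, h⟩ := hL n hn
  refine ⟨⟨n, hn.2⟩, fun x hx hx' => Subtype.ext (conj_eq S hv hn.1 hr hu hx hx' ?_).symm, a, ha,
    fun x hx => Subtype.ext (by simpa using h x hx)⟩
  rw [← e]; rfl

theorem Dec.ctl1 {M : Subgroup G} (hd : Dec S M) (h3 : S.R3) {e : ℕ} (hE : ∀ n ∈ S.N ⊓ M, n ^ e ∈ S.H) :
    Ctl (S.H.subgroupOf M) [(e, 1)] := hd.ctl fun n hn => ⟨_, List.mem_singleton_self _, fun x hx => by
  rw [zpow_one, (S.commute_H h3 (hE n hn) hx).eq, mul_inv_cancel_right]⟩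

theorem rep_pow {n : G} {w : Equiv.Perm Φ} (h : S.Rep n w) (k : ℕ) : S.Rep (n ^ k) (w ^ k) := by
  induction k with
  | zero => simpa using St0.rep_one
  | succ k ih => rw [pow_succ, pow_succ]; exact ih.mul h

theorem rep_inv (h3 : S.R3) {n : G} {w : Equiv.Perm Φ} (h : S.Rep n w) (hw : ∀ i, w (R.sim i) = R.neg (R.sim i)) :
    ∀ x ∈ S.H, n * x * n⁻¹ = x⁻¹ := by
  rw [← S.range_hh h3]
  rintro _ ⟨c, rfl⟩
  refine S.hh_induction h3 (fun c => n * S.hh h3 c * n⁻¹ = (S.hh h3 c)⁻¹) (fun i t => ?_) (by simp)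
    (fun c d h1 h2 => ?_) c
  · rw [S.hh_single, S.rep_conj_h h3 h _ t.ne_zero, hw, S.h_eq_hh h3, S.h_eq_hh h3, ← map_inv]
    congr 1; funext j; simp [RS.co_neg]
  · rw [mul_comm c d, map_mul, mul_inv_rev, ← h1, ← h2, ← map_mul, mul_comm d c, map_mul]; group

theorem pow_mem_of_hom {M : Subgroup G} {W : Type*} [Group W] (φ : ↥(S.N ⊓ M) →* W)
    (hk : φ.ker = (S.H ⊓ M).subgroupOf (S.N ⊓ M)) {e : ℕ} (he : ∀ w : W, w ^ e = 1) :
    ∀ n ∈ S.N ⊓ M, n ^ e ∈ S.H := fun n hn => by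
  have : (⟨n, hn⟩ : ↥(S.N ⊓ M)) ^ e ∈ φ.ker := by rw [MonoidHom.mem_ker, map_pow, he]
  exact (hk ▸ this).1

theorem relIndex_of_hom {M : Subgroup G} {W : Type*} [Group W] (φ : ↥(S.N ⊓ M) →* W) (hs : Function.Surjective φ)
    (hk : φ.ker = (S.H ⊓ M).subgroupOf (S.N ⊓ M)) : S.H.relIndex (S.N ⊓ M) = Nat.card W := by
  rw [← card_top (G := W), ← MonoidHom.range_eq_top.2 hs, ← index_ker, hk, relIndex]
  congr 1; ext x; simpa [mem_subgroupOf] using fun _ => x.2.2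

theorem noA8 [Finite G] {M : Subgroup G} (hE : ∀ n ∈ S.N ⊓ M, n ^ 6 ∈ S.H) (hI : S.H.relIndex (S.N ⊓ M) = 12)
    (h8 : ¬ 8 ∣ S.H.relIndex M) {B C : Type*} [CommGroup B] [CommGroup C] [Finite B]
    [Finite C] [IsCyclic B] [IsCyclic C] (μ : B × C →* G) (hμ : μ.range = S.H ⊓ M) :
    ¬ Sec (alternatingGroup (Fin 8)) M := by
  refine not_A8 (N := (S.N ⊓ M).subgroupOf M) (fun h => h8 ?_) (μ.codRestrict M fun x => (hμ.le ⟨x, rfl⟩).2)
    fun n hn => ?_
  · have : (S.H ⊓ M).relIndex (S.N ⊓ M) * (S.N ⊓ M).relIndex M = (S.H ⊓ M).relIndex M :=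
      relIndex_mul_relIndex _ _ _ (inf_le_inf_right _ S.H_le_N) inf_le_right
    rw [inf_relIndex_right S.H M, show S.H ⊓ M = S.H ⊓ (S.N ⊓ M) by rw [← inf_assoc, inf_eq_left.2 S.H_le_N],
      inf_relIndex_right, hI] at this
    obtain ⟨k, hk⟩ := h
    exact ⟨3 * k, by rw [← this, relIndex, hk]; ring⟩
  · obtain ⟨x, hx⟩ := hμ.ge ⟨hE n hn, M.pow_mem n.2 6⟩
    exact ⟨x, Subtype.ext hx⟩

end

theorem relIndex_eq {G : Type*} [Group G] {H M : Subgroup G} {a b : ℕ} (h1 : Nat.card ↥(H ⊓ M) = a)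
    (h2 : Nat.card M = a * b) (ha : a ≠ 0) : H.relIndex M = b := by
  have := (H.subgroupOf M).card_mul_index
  rw [← inf_subgroupOf_right, Nat.card_congr (subgroupOfEquivOfLe inf_le_right).toEquiv, h1, h2,
    inf_subgroupOf_right] at this
  exact Nat.eq_of_mul_eq_mul_left (Nat.pos_of_ne_zero ha) this

section
variable {D : ChevalleyDatum} {F K : Type*} [Field F] [Field K] (φ : F →+* K)

theorem map_xMat (r : Fin D.nroots) (t : F) : (D.xMat F r t).map φ = D.xMat K r (φ t) := by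
  ext x y
  rcases x with x | x <;> rcases y with y | y <;>
    simp [ChevalleyDatum.xMat, apply_ite φ, map_list_sum, Function.comp_def]

theorem map_wordMat (w : List (ℕ × F)) : (D.wordMat F w).map φ = D.wordMat K (w.map (Prod.map id φ)) := by
  induction w with
  | nil => simp [ChevalleyDatum.wordMat]
  | cons a w ih =>
    simp only [ChevalleyDatum.wordMat, List.map_cons, List.prod_cons, Matrix.map_mul] at ih ⊢
    rw [ih]; congr 1
    simp only [ChevalleyDatum.x, Prod.map_fst, Prod.map_snd, id]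
    split_ifs
    exacts [map_xMat φ _ _, Matrix.map_one _ φ.map_zero φ.map_one]

theorem Sec.ext {A : Type*} [Group A] {X : Set (GL D.Idx F)} {Y : Set (GL D.Idx K)} (h : Sec A (closure X))
    (H : ∀ g ∈ X, Matrix.GeneralLinearGroup.map φ g ∈ Y) : Sec A (closure Y) := by
  refine h.right (((Matrix.GeneralLinearGroup.map φ).comp (closure X).subtype).codRestrict _ fun g => ?_)
    fun a b e => Subtype.ext (Units.ext (Matrix.map_injective φ.injective
      (congrArg (fun z : closure Y => (z.1 : Matrix D.Idx D.Idx K)) e)))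
  exact (closure_le (K := (closure Y).comap (Matrix.GeneralLinearGroup.map φ))).2
    (fun g hg => subset_closure (H g hg)) g.2

include φ in
theorem Sec.group {A : Type*} [Group A] (h : Sec A (D.group F)) : Sec A (D.group K) :=
  h.ext φ (by rintro g ⟨r, t, e⟩; exact ⟨r, φ t, (congrArg (·.map φ) e).trans (map_xMat φ r t)⟩)

theorem Sec.gen {A : Type*} [Group A] {X : Set (List (ℕ × F))} {Y : Set (List (ℕ × K))}
    (h : Sec A (D.genSubgroup F X)) (H : ∀ w ∈ X, w.map (Prod.map id φ) ∈ Y) : Sec A (D.genSubgroup K Y) :=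
  h.ext φ (by rintro g ⟨w, hw, e⟩; exact ⟨_, H w hw, (congrArg (·.map φ) e).trans (map_wordMat φ w)⟩)

end

theorem expG2 : ∀ w ∈ tabG2_chk.rsys.W, w ^ 6 = 1 := fun w hw => by
  set R := tabG2_chk.rsys
  let a : Fin chevG2.rank := (0 : Fin 2)
  let b : Fin chevG2.rank := (1 : Fin 2)
  have h1 : (R.s a * R.s b) ^ 6 = 1 := by
    have := pow_orderOf_eq_one (R.wd (List.finRange 2))
    rwa [ordG2, show R.wd (List.finRange 2) = R.wd [a, b] from rfl, RS.wd_cons, RS.wd_singleton] at this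
  have h2 : R.s a * (R.s a * R.s b) * (R.s a)⁻¹ = (R.s a * R.s b)⁻¹ := by
    rw [← mul_assoc, R.s_mul_s, one_mul, mul_inv_rev, R.s_inv b]
  have : R.W ≤ (H6.dihHom _ _ h1 (R.s_mul_s a) h2).range := by
    rw [H6.dihHom_range, RS.W, closure_le]
    rintro _ ⟨i, rfl⟩
    have : i = a ∨ i = b := (by decide : ∀ i : Fin 2, i = 0 ∨ i = 1) i
    rcases this with rfl | rfl
    · exact subset_closure (by simp)
    · have := mul_mem (subset_closure (k := {R.s a * R.s b, R.s a}) (Or.inr rfl)) (subset_closure (Or.inl rfl))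
      rwa [← mul_assoc, R.s_mul_s, one_mul] at this
  obtain ⟨x, rfl⟩ := this hw
  rw [← map_pow, (by decide : ∀ x : DihedralGroup 6, x ^ 6 = 1), map_one]

noncomputable def fI (x : ℤ) (f : ℤ → Bool) : Bool :=
  Int.rec (fun n => forceB n fun n => f (Int.ofNat n)) (fun n => forceB n fun n => f (Int.negSucc n)) x
theorem fI_eq (x : ℤ) (f : ℤ → Bool) : fI x f = f x := by
  cases x
  exacts [forceB_eq _ fun n => f (Int.ofNat n), forceB_eq _ fun n => f (Int.negSucc n)]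
abbrev V4 := ℤ × ℤ × ℤ × ℤ
noncomputable def fV (v : V4) (f : V4 → Bool) : Bool := fI v.1 fun a => fI v.2.1 fun b => fI v.2.2.1 fun c => fI v.2.2.2 fun d => f (a, b, c, d)
theorem fV_eq (v : V4) (f : V4 → Bool) : fV v f = f v := by simp only [fV, fI_eq]
def dot (a b c d : ℤ) (v : V4) : ℤ :=
  Int.add (Int.add (Int.add (Int.mul v.1 a) (Int.mul v.2.1 b)) (Int.mul v.2.2.1 c)) (Int.mul v.2.2.2 d)
def ln (a b c d v : V4) : V4 := (dot a.1 b.1 c.1 d.1 v, dot a.2.1 b.2.1 c.2.1 d.2.1 v,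
  dot a.2.2.1 b.2.2.1 c.2.2.1 d.2.2.1 v, dot a.2.2.2 b.2.2.2 c.2.2.2 d.2.2.2 v)
noncomputable def it (g : V4 → V4) (k : ℕ) (f : V4 → Bool) : V4 → Bool := Nat.rec f (fun _ ih v => fV (g v) ih) k
theorem it_eq (g : V4 → V4) (k : ℕ) (f : V4 → Bool) (v : V4) : it g k f v = f (g^[k] v) := by
  induction k generalizing v with
  | zero => rfl
  | succ k ih => exact (fV_eq _ _).trans (ih _)
noncomputable def vc (r : ℕ) : V4 := (tabF4.rtv r 0, tabF4.rtv r 1, tabF4.rtv r 2, tabF4.rtv r 3)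
noncomputable def veq (u v : V4) : Bool :=
  band (ibeq u.1 v.1) (band (ibeq u.2.1 v.2.1) (band (ibeq u.2.2.1 v.2.2.1) (ibeq u.2.2.2 v.2.2.2)))
theorem veq_iff {u v : V4} : veq u v = true ↔ u = v := by simp [veq, Prod.ext_iff]
noncomputable def ck (g : V4 → V4) (k : ℕ) (n : ℕ → ℕ) : Bool :=
  allLt 4 fun i => it g k (veq (vc (n (tabF4.simple i)))) (vc (tabF4.simple i))
noncomputable def aa (r s i j : ℕ) : Bool :=
  bnot (ibeq (tabF4.A r s) (tabF4.A (tabF4.simple i) (tabF4.simple j)))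
theorem chkF4 : (allLt 48 fun a => allLt 48 fun b => bor (aa a b 0 1) <| allLt 48 fun c => bor (aa b c 1 2) <|
    bor (aa a c 0 2) <| allLt 48 fun d => bor (aa c d 2 3) <| bor (aa b d 1 3) <| bor (aa a d 0 3) <|
    fV (vc a) fun a => fV (vc b) fun b => fV (vc c) fun c => fV (vc d) fun d =>
    bor (ck (ln a b c d) 6 id) <| bor (ck (ln a b c d) 8 id) (ck (ln a b c d) 6 tabF4.neg)) = true := by
  decide +kernel

theorem expF4 {w : Equiv.Perm (Fin chevF4.nroots)} (hw : w ∈ tabF4_chk.rsys.Aut) :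
    w ^ 6 = 1 ∨ w ^ 8 = 1 ∨ ∀ i, (w ^ 6) (tabF4_chk.rsys.sim i) = tabF4_chk.rsys.neg (tabF4_chk.rsys.sim i) := by
  set R := tabF4_chk.rsys
  let r : Fin 4 → Fin chevF4.nroots := fun i => w (R.sim i)
  have hA : ∀ i j : Fin 4, ¬ aa (r i) (r j) i j = true := fun i j => by
    rw [aa, bnot_iff, not_not, ibeq_iff, ← tabF4_chk.A_eq, RS.Aut.A hw, tabF4_chk.A_eq]
    exact congrArg₂ _ (tabF4_chk.val_sim i) (tabF4_chk.val_sim j)
  have H := chkF4
  simp only [allLt_iff, bor_iff, fV_eq] at H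
  have H := ((((((H _ (r 0).2 _ (r 1).2).resolve_left (hA 0 1) _ (r 2).2).resolve_left (hA 1 2)).resolve_left (hA 0 2)
    _ (r 3).2).resolve_left (hA 2 3)).resolve_left (hA 1 3)).resolve_left (hA 0 3)
  generalize hg : ln (vc (r 0)) (vc (r 1)) (vc (r 2)) (vc (r 3)) = g at H
  have h1 : ∀ s : Fin chevF4.nroots, g (vc s) = vc (w s) := fun s => by
    have := RS.Aut.lin_rt hw s
    rw [RS.lin_apply] at this
    have e : ∀ j : Fin 4, tabF4.rtv (w s) j = ∑ i : Fin 4, tabF4.rtv s i * tabF4.rtv (r i) j := fun j =>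
      (congrFun this j).symm.trans (Finset.sum_apply _ _ _)
    simp only [Fin.sum_univ_four] at e
    rw [← hg]
    exact Prod.ext (e 0).symm (Prod.ext (e 1).symm (Prod.ext (e 2).symm (e 3).symm))
  have h2 : ∀ (k : ℕ) (s : Fin chevF4.nroots), g^[k] (vc s) = vc ((w ^ k) s) := fun k s => by
    induction k with
    | zero => rfl
    | succ k ih => rw [Function.iterate_succ_apply', ih, h1, pow_succ', Equiv.Perm.mul_apply]
  have h3 : ∀ {s t : Fin chevF4.nroots}, vc s = vc t → s = t := fun {s t} e => R.rt_inj (funext fun i : Fin 4 => by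
    simp only [vc, Prod.mk.injEq] at e
    fin_cases i
    exacts [e.1, e.2.1, e.2.2.1, e.2.2.2])
  have h4 : ∀ k n, ck g k n = true → ∀ i : Fin 4, vc (n (R.sim i)) = vc ((w ^ k) (R.sim i)) := fun k n h i => by
    have := allLt_iff.1 h i i.2
    rwa [it_eq, veq_iff, ← tabF4_chk.val_sim i, h2] at this
  rcases H with H | H | H
  · exact Or.inl (RS.Aut.eq_one_of_fix (pow_mem hw _) fun i => (h3 (h4 _ _ H i)).symm)
  · exact Or.inr (Or.inl (RS.Aut.eq_one_of_fix (pow_mem hw _) fun i => (h3 (h4 _ _ H i)).symm))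
  · exact Or.inr (Or.inr fun i => (h3 ((congrArg vc (tabF4_chk.val_neg _)).trans (h4 _ _ H i))).symm)

end Lead.AS
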