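import Cfsg.Agent.H10.Compl

/-!
Goldschmidt amalgams, the case of one central vertex type: local facts.
-/

set_option autoImplicit false
set_option linter.unusedSectionVars false

namespace Lead.Gam

open H10 Cfsg
open scoped commutatorElement

variable {G : Type*} [Group G] [Finite G] {V : Type*} [MulAction G V] {Γ : SimpleGraph V}

local notation "𝐆" a:max => MulAction.stabilizer G a
local notation "𝐐" a:max => gQ G a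
local notation "𝐙" a:max => gZ G a
local notation "𝐕" a:max => gV G Γ a

/-- central type -/
def B (G : Type*) [Group G] {V : Type*} [MulAction G V] (a : V) : Prop :=
  MulAction.stabilizer G a ≤ CC(gZ G a)

/-- the situation with a central vertex type -/
structure GS (G : Type*) [Group G] {V : Type*} [MulAction G V] (Γ : SimpleGraph V) : Prop
    extends AG G Γ where
  exB : ∃ b : V, B G b

theorem cQ {x : G} {a a' : V} {g : G} (hg : g • a = a') (hx : x ∈ 𝐐 a) : g * x * g⁻¹ ∈ 𝐐 a' :=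
  hg ▸ gQ_smul g a ▸ conj_mem_cj hx

theorem cZ {x : G} {a a' : V} {g : G} (hg : g • a = a') (hx : x ∈ 𝐙 a) : g * x * g⁻¹ ∈ 𝐙 a' :=
  hg ▸ gZ_smul g a ▸ conj_mem_cj hx

theorem cG {x : G} {a a' : V} {g : G} (hg : g • a = a') (hx : x ∈ 𝐆 a) : g * x * g⁻¹ ∈ 𝐆 a' :=
  hg ▸ stab_smul g a ▸ conj_mem_cj hx

theorem cQ' {x : G} {a a' : V} {g : G} (hg : g • a = a') (hx : g * x * g⁻¹ ∈ 𝐐 a') : x ∈ 𝐐 a := by
  rw [← hg, gQ_smul, conj_mem_cj_iff] at hx; exact hx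

theorem cZ' {x : G} {a a' : V} {g : G} (hg : g • a = a') (hx : g * x * g⁻¹ ∈ 𝐙 a') : x ∈ 𝐙 a := by
  rw [← hg, gZ_smul, conj_mem_cj_iff] at hx; exact hx

theorem B.smul {a : V} (h : B G a) (g : G) : B G (g • a) := by
  rw [B, stab_smul, gZ_smul, ← cj_centralizer]
  exact cj_mono g h

theorem B.comm {b : V} (h : B G b) {x g : G} (hx : x ∈ 𝐙 b) (hg : g ∈ 𝐆 b) : Commute x g :=
  mem_CC.1 (h hg) x hx

theorem conj_of_comm {x g : G} (h : Commute x g) : g * x * g⁻¹ = x := by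
  rw [← h.eq, mul_inv_cancel_right]

theorem comm_of_conj {x g : G} (h : g * x * g⁻¹ = x) : Commute x g := by
  have : g * x = x * g := by rw [← mul_inv_eq_iff_eq_mul]; exact h
  exact this.symm

theorem eq_of_mul_eq_one {x y : G} (hy : y * y = 1) (h : x * y = 1) : x = y := by
  rw [eq_inv_of_mul_eq_one_left h, inv_eq_of_mul_eq_one_left hy]

namespace GS

variable (h : GS G Γ)
include h

theorem cV {x : G} {a a' : V} {g : G} (hg : g • a = a') (hx : x ∈ 𝐕 a) : g * x * g⁻¹ ∈ 𝐕 a' :=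
  hg ▸ h.V_smul g a ▸ conj_mem_cj hx

theorem cZQ {a : V} {x q : G} (hx : x ∈ 𝐙 a) (hq : q ∈ 𝐐 a) : Commute x q :=
  mem_CC.1 (h.Q_le_CC a hq) x hx

theorem cZZ {a : V} {x y : G} (hx : x ∈ 𝐙 a) (hy : y ∈ 𝐙 a) : Commute x y :=
  h.cZQ hx (h.Z_le_Q a hy)

theorem tq {a b : V} (hab : Γ.Adj a b) {t s : G} (ht : t ∈ 𝐆 a ⊓ 𝐆 b) (htQ : t ∉ 𝐐 a)
    (hs : s ∈ 𝐆 a ⊓ 𝐆 b) : s ∈ 𝐐 a ∨ t⁻¹ * s ∈ 𝐐 a := by
  by_cases e : s ∈ 𝐐 a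
  · exact Or.inl e
  · exact Or.inr ((h.loc hab).mul_mem_Q (inv_mem ht) hs (fun k => htQ (inv_mem_iff.1 k)) e)

theorem mulQ {a b : V} (hab : Γ.Adj a b) {t s : G} (ht : t ∈ 𝐆 a ⊓ 𝐆 b) (hs : s ∈ 𝐆 a ⊓ 𝐆 b)
    (htQ : t ∉ 𝐐 a) (hsQ : s ∉ 𝐐 a) : t * s ∈ 𝐐 a := (h.loc hab).mul_mem_Q ht hs htQ hsQ

theorem sqQ {a b : V} (hab : Γ.Adj a b) {t : G} (ht : t ∈ 𝐆 a ⊓ 𝐆 b) : t * t ∈ 𝐐 a := by
  by_cases e : t ∈ 𝐐 a
  · exact mul_mem e e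
  · exact h.mulQ hab ht ht e e

theorem memQ {a b c : V} (hb : Γ.Adj a b) (hc : Γ.Adj a c) (hne : b ≠ c) {x : G}
    (h0 : x ∈ 𝐆 a) (h1 : x ∈ 𝐆 b) (h2 : x ∈ 𝐆 c) : x ∈ 𝐐 a :=
  h.le_Q hb hc hne (Subgroup.zpowers_le_of_mem h0) (Subgroup.zpowers_le_of_mem h1)
    (Subgroup.zpowers_le_of_mem h2) (Subgroup.mem_zpowers x)

theorem exT {a b : V} (hab : Γ.Adj a b) : ∃ t ∈ 𝐆 a ⊓ 𝐆 b, t ∉ 𝐐 a :=
  SetLike.not_le_iff_exists.1 (h.loc hab).not_le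

theorem exQ {a b : V} (hab : Γ.Adj a b) : ∃ t ∈ 𝐐 b, t ∉ 𝐐 a :=
  SetLike.not_le_iff_exists.1 (h.Q_not_le hab.symm)

theorem memZ {a b : V} (hab : Γ.Adj a b) {x t : G} (hx : x ∈ 𝐐 a) (h2 : x * x = 1)
    (hc : ∀ q ∈ 𝐐 a, Commute x q) (ht : t ∈ 𝐆 a ⊓ 𝐆 b) (htQ : t ∉ 𝐐 a) (hxt : Commute x t) :
    x ∈ 𝐙 b := by
  refine h.ZO_le hab.symm (mem_ZO.2 ⟨?_, mem_CC.2 fun s hs => ?_, by rwa [sq]⟩)
  · exact ⟨h.Q_le hab hx, gQ_le a hx⟩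
  · rcases h.tq hab ht htQ ⟨hs.2, hs.1⟩ with e | e
    · exact (hc s e).eq.symm
    · have := hxt.mul_right (hc _ e)
      rw [mul_inv_cancel_left] at this
      exact this.eq.symm

theorem not_both {a b : V} (hab : Γ.Adj a b) (ha : B G a) (hb : B G b) : False :=
  ZO_ne_bot (h.loc hab).pg (fun e => (h.loc hab).not_le (e.le.trans bot_le))
    (h.bot_of_CC hab (ZO_le _) ((h.ZO_le hab).trans (le_CC_symm ha))
      (((inf_comm (𝐆 b) (𝐆 a)) ▸ h.ZO_le hab.symm).trans (le_CC_symm hb)))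

theorem alt {a b : V} (hab : Γ.Adj a b) : B G a ↔ ¬ B G b := by
  obtain ⟨v, hv⟩ := h.exB
  exact ⟨h.not_both hab, (h.or_of (fun g _ k => k.smul g) hab hv).resolve_right⟩

theorem nB {a b : V} (hab : Γ.Adj a b) (hb : B G b) : ¬ B G a := fun ha => h.not_both hab ha hb

theorem isB {a b : V} (hab : Γ.Adj a b) (ha : ¬ B G a) : B G b := by
  by_contra hb; exact ha ((h.alt hab).2 hb)

theorem nc {a : V} (ha : ¬ B G a) : NC G a := by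
  obtain ⟨b, hab⟩ := h.ex a
  refine h.nc_of hab fun hc => ha ?_
  have e : 𝐙 a = ZO 2 (𝐆 a ⊓ 𝐆 b) := by
    rw [gZ, (h.loc hab).syl.scc_eq]
    exact ncl_eq_of_le_NN (hc.trans (CC_le_NN _))
  rw [B, e]; exact hc

theorem ncQ {a : V} (ha : ¬ B G a) {x : G} (hx : x ∈ 𝐆 a) (hc : ∀ z ∈ 𝐙 a, Commute z x) :
    x ∈ 𝐐 a := h.nc ha ⟨hx, mem_CC.2 hc⟩

theorem ZB_ZO {a b : V} (hab : Γ.Adj a b) (hb : B G b) : 𝐙 b ≤ ZO 2 (𝐆 a ⊓ 𝐆 b) := fun x hx =>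
  mem_ZO.2 ⟨h.Q_le_T' hab (h.Z_le_Q b hx), mem_CC.2 fun s hs => (hb.comm hx hs.2).eq.symm,
    by rw [sq]; exact h.mul_self hx⟩

theorem ZB_le {a b : V} (hab : Γ.Adj a b) (hb : B G b) : 𝐙 b ≤ 𝐙 a :=
  (h.ZB_ZO hab hb).trans (h.ZO_le hab)

theorem cenB {a b : V} (hab : Γ.Adj a b) (hb : B G b) : 𝐆 b ≤ CC(ZO 2 (𝐆 a ⊓ 𝐆 b)) :=
  hb.trans (CC_anti ((inf_comm (𝐆 b) (𝐆 a)) ▸ h.ZO_le hab.symm))

theorem one_of {a b : V} (hab : Γ.Adj a b) (hb : B G b) {x : G} (hx : x ∈ 𝐙 b)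
    (hc : 𝐆 a ≤ CC(Subgroup.zpowers x)) : x = 1 :=
  Subgroup.zpowers_eq_bot.1 (h.bot_of_CC hab ((Subgroup.zpowers_le_of_mem hx).trans
    ((h.Z_le_Q b).trans (h.Q_le_T' hab))) (le_CC_symm hc)
      ((Subgroup.zpowers_le_of_mem hx).trans (le_CC_symm hb)))

/-- siblings of central type intersect trivially -/
theorem sib {a b c : V} (hb : Γ.Adj a b) (hc : Γ.Adj a c) (hne : b ≠ c) (hB : B G b) {x : G}
    (h1 : x ∈ 𝐙 b) (h2 : x ∈ 𝐙 c) : x = 1 := by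
  have hC : B G c := h.isB hc (h.nB hb hB)
  refine h.one_of hb hB h1 (h.gen' hb hc hne ?_ ?_)
  · exact inf_le_right.trans (hC.trans (CC_anti (Subgroup.zpowers_le_of_mem h2)))
  · exact inf_le_right.trans (hB.trans (CC_anti (Subgroup.zpowers_le_of_mem h1)))

theorem tz {a b : V} (hab : Γ.Adj a b) {y t : G} (hy : y ∈ ZO 2 (𝐐 a)) (ht : t ∈ 𝐆 a ⊓ 𝐆 b)
    (htQ : t ∉ 𝐐 a) : y * (t * y * t⁻¹) ∈ 𝐙 b := by
  have hy' : t * y * t⁻¹ ∈ ZO 2 (𝐐 a) :=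
    conj_mem_of_mem_NN (NN_le_NN_ZO _ (le_NN_gQ le_rfl ht.1)) hy
  have k := mul_mem hy hy'
  obtain ⟨k1, k2, k3⟩ := mem_ZO.1 k
  refine h.memZ hab k1 (by rwa [sq] at k3) (fun q hq => (mem_CC.1 k2 q hq).symm) ht htQ
    (comm_of_conj ?_)
  have e1 : (t * t) * y = y * (t * t) := mem_CC.1 (mem_ZO.1 hy).2.1 _ (h.sqQ hab ht)
  have e2 : (t * y * t⁻¹) * y = y * (t * y * t⁻¹) := mem_CC.1 (mem_ZO.1 hy).2.1 _ (ZO_le _ hy')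
  calc t * (y * (t * y * t⁻¹)) * t⁻¹ = (t * y * t⁻¹) * ((t * t * y) * t⁻¹ * t⁻¹) := by group
    _ = (t * y * t⁻¹) * y := by rw [e1]; group
    _ = _ := e2

theorem cz {a b : V} (hab : Γ.Adj a b) {y t : G} (hy : y ∈ 𝐙 a) (ht : t ∈ 𝐆 a ⊓ 𝐆 b) :
    y * (t * y * t⁻¹) ∈ 𝐙 b := by
  by_cases e : t ∈ 𝐐 a
  · rw [conj_of_comm (h.cZQ hy e), h.mul_self hy]; exact one_mem _
  · exact h.tz hab (h.Z_le_ZO a hy) ht e

theorem fix {a b : V} (hab : Γ.Adj a b) {y t : G} (hy : y ∈ 𝐙 a) (ht : t ∈ 𝐆 a ⊓ 𝐆 b)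
    (htQ : t ∉ 𝐐 a) (hc : Commute y t) : y ∈ 𝐙 b :=
  h.memZ hab (h.Z_le_Q a hy) (h.mul_self hy) (fun _ hq => h.cZQ hy hq) ht htQ hc

theorem card_eq {a b c : V} (hb : Γ.Adj a b) (hc : Γ.Adj a c) :
    Nat.card (𝐙 b) = Nat.card (𝐙 c) := by
  obtain ⟨g, -, rfl⟩ := h.tr hb hc
  rw [gZ_smul, card_cj]

theorem surj {a b c : V} (hb : Γ.Adj a b) (hc : Γ.Adj a c) (hne : c ≠ b) (hB : B G b) {t : G}
    (ht : t ∈ 𝐆 a ⊓ 𝐆 b) (htQ : t ∉ 𝐐 a) {z : G} (hz : z ∈ 𝐙 b) :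
    ∃ y ∈ 𝐙 c, y * (t * y * t⁻¹) = z := by
  have hC : B G c := h.isB hc (h.nB hb hB)
  let f : 𝐙 c → 𝐙 b := fun y => ⟨y * (t * y * t⁻¹), h.cz hb (h.ZB_le hc hC y.2) ht⟩
  have hf : Function.Injective f := fun y y' e => by
    have e1 : (y : G) * (t * y * t⁻¹) = y' * (t * y' * t⁻¹) := congrArg Subtype.val e
    have e2 : t * ((y' : G)⁻¹ * y) * t⁻¹ = ((y' : G)⁻¹ * y)⁻¹ := by
      have c1 := h.cZZ (cZ (ht.1 : t • a = a) (h.ZB_le hc hC y.2))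
        (cZ (ht.1 : t • a = a) (h.ZB_le hc hC y'.2))
      calc t * ((y' : G)⁻¹ * y) * t⁻¹ = (t * y' * t⁻¹)⁻¹ * (t * y * t⁻¹) := by group
        _ = (t * y * t⁻¹) * (t * y' * t⁻¹)⁻¹ := c1.inv_right.eq.symm
        _ = (y : G)⁻¹ * ((y : G) * (t * y * t⁻¹)) * (t * y' * t⁻¹)⁻¹ := by group
        _ = _ := by rw [e1]; group
    have m : (y' : G)⁻¹ * y ∈ 𝐙 c := mul_mem (inv_mem y'.2) y.2
    rw [inv_eq_of_mul_eq_one_right (h.mul_self m)] at e2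
    have := h.sib hb hc hne.symm hB (h.fix hb (h.ZB_le hc hC m) ht htQ (comm_of_conj e2)) m
    exact Subtype.ext (inv_mul_eq_one.1 this).symm
  obtain ⟨y, hy⟩ := ((Nat.bijective_iff_injective_and_card f).2 ⟨hf, h.card_eq hc hb⟩).2 ⟨z, hz⟩
  exact ⟨y, y.2, congrArg Subtype.val hy⟩

theorem dec {a b c : V} (hb : Γ.Adj a b) (hc : Γ.Adj a c) (hne : c ≠ b) (hB : B G b) {y : G}
    (hy : y ∈ ZO 2 (𝐐 a)) : ∃ v ∈ 𝐙 c, y * v ∈ 𝐙 b := by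
  have hC : B G c := h.isB hc (h.nB hb hB)
  obtain ⟨t, ht, htQ⟩ := h.exT hb
  obtain ⟨v, hv, e⟩ := h.surj hb hc hne hB ht htQ (h.tz hb hy ht htQ)
  have hv' := h.Z_le_ZO a (h.ZB_le hc hC hv)
  obtain ⟨k1, k2, k3⟩ := mem_ZO.1 (mul_mem hy hv')
  refine ⟨v, hv, h.memZ hb k1 (by rwa [sq] at k3) (fun q hq => (mem_CC.1 k2 q hq).symm) ht htQ
    (comm_of_conj ?_)⟩
  have y2 : y * y = 1 := by have := (mem_ZO.1 hy).2.2; rwa [sq] at this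
  have v2 : v * v = 1 := h.mul_self hv
  have c1 : (t * y * t⁻¹) * y = y * (t * y * t⁻¹) := mem_CC.1 (mem_ZO.1 hy).2.1 _
    (cQ (ht.1 : t • a = a) (ZO_le _ hy))
  have c2 : (t * y * t⁻¹) * v = v * (t * y * t⁻¹) := mem_CC.1 (mem_ZO.1 hv').2.1 _
    (cQ (ht.1 : t • a = a) (ZO_le _ hy))
  have c3 : y * v = v * y := mem_CC.1 (mem_ZO.1 hv').2.1 _ (ZO_le _ hy)
  have e3 : t * v * t⁻¹ = v * (y * (t * y * t⁻¹)) := by
    rw [← e, ← mul_assoc, v2, one_mul]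
  calc t * (y * v) * t⁻¹ = (t * y * t⁻¹) * (t * v * t⁻¹) := by group
    _ = ((t * y * t⁻¹) * v) * (y * (t * y * t⁻¹)) := by rw [e3]; group
    _ = v * ((t * y * t⁻¹) * y) * (t * y * t⁻¹) := by rw [c2]; group
    _ = v * y * (t * (y * y) * t⁻¹) := by rw [c1]; group
    _ = y * v := by rw [y2, c3]; group

theorem ZO_Z {a : V} (ha : ¬ B G a) {y : G} (hy : y ∈ 𝐐 a) (h2 : y * y = 1)
    (hc : ∀ q ∈ 𝐐 a, Commute y q) : y ∈ 𝐙 a := by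
  obtain ⟨b, hb⟩ := h.ex a
  obtain ⟨c, hc', hne⟩ := h.exists_ne hb
  obtain ⟨v, hv, e⟩ := h.dec hb hc' hne (h.isB hb ha)
    (mem_ZO.2 ⟨hy, mem_CC.2 fun q hq => (hc q hq).eq.symm, by rwa [sq]⟩)
  have := mul_mem (h.ZB_le hb (h.isB hb ha) e) (inv_mem (h.ZB_le hc' (h.isB hc' ha) hv))
  rwa [mul_inv_cancel_right] at this

theorem exZ (b : V) : ∃ z ∈ 𝐙 b, z ≠ 1 := by
  by_contra hn
  push Not at hn
  exact h.Z_ne_bot b ((Subgroup.eq_bot_iff_forall _).2 hn)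

/-- `Z_a ≠ Z_b` -/
theorem exZA {a b : V} (hab : Γ.Adj a b) (hB : B G b) : ∃ z ∈ 𝐙 a, z ∉ 𝐙 b := by
  obtain ⟨c, hc, hne⟩ := h.exists_ne hab
  obtain ⟨z, hz, h1⟩ := h.exZ c
  exact ⟨z, h.ZB_le hc (h.isB hc (h.nB hab hB)) hz, fun e => h1 (h.sib hab hc hne.symm hB e hz)⟩

/-- critical distance is not one -/
theorem F2 {a b : V} (hab : Γ.Adj a b) : 𝐙 a ≤ 𝐐 b := by
  by_cases hB : B G a
  · exact (h.ZB_le hab.symm hB).trans (h.Z_le_Q b)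
  have hb := h.isB hab hB
  by_contra hn
  have hT : 𝐙 a ≤ 𝐆 a ⊓ 𝐆 b := (h.Z_le_Q a).trans (h.Q_le_T hab)
  have h1 : ⁅𝐙 a, 𝐐 b⁆ ≤ 𝐙 b := Subgroup.commutator_le.2 fun y hy q hq => by
    have := h.cz hab hy (h.Q_le_T' hab hq)
    rwa [commutatorElement_def, inv_eq_of_mul_eq_one_right (h.mul_self hy), mul_assoc, mul_assoc,
      ← mul_assoc q]
  have h2 := h.comm_res_le (D := 𝐐 b) (comm_le_left (le_NN_gQ (resOf_le _))) (le_NN_gQ le_rfl)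
    (hT.trans inf_le_right) hn h1
  have h3 : ⁅𝐐 b, resOf 2 (𝐆 b)⁆ = ⊥ := by
    rw [← comm_resOf_comm (gQ_pg b) (le_NN_gQ (resOf_le _))]
    exact comm_eq_bot'.2 ((resOf_le _).trans (hb.trans (CC_anti h2)))
  have h4 := (h.ch b).isPGroup le_rfl (comm_eq_bot'.1 h3)
  exact (h.loc hab.symm).not_le (inf_le_left.trans (le_pCoreOf h4 le_rfl (le_NN_self _)))

end GS

end Lead.Gam
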