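import Cfsg.Agent.Lead.Gam1

/-!
Goldschmidt amalgams: more local facts, lines and arc transitivity.
-/

set_option autoImplicit false
set_option linter.unusedSectionVars false

namespace Lead.Gam

open H10 Cfsg
open scoped commutatorElement

variable {G : Type*} [Group G] [Finite G] {V : Type*} [MulAction G V] {Γ : SimpleGraph V}

local notation "𝐆" a:max => MulAction.stabilizer G a
local notation "𝐐" a:max => gQ G a
local notation "𝐙" a:max => gZ G a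
local notation "𝐕" a:max => gV G Γ a

theorem nn2 {v z g : G} (h1 : g * v * g⁻¹ ∈ Subgroup.zpowers v ⊔ Subgroup.zpowers z)
    (h2 : g * z * g⁻¹ ∈ Subgroup.zpowers v ⊔ Subgroup.zpowers z) :
    g ∈ NN(Subgroup.zpowers v ⊔ Subgroup.zpowers z) := by
  refine mem_NN_of_cj_le ?_
  rw [cj_sup, cj_zpowers, cj_zpowers]
  exact sup_le (Subgroup.zpowers_le_of_mem h1) (Subgroup.zpowers_le_of_mem h2)

theorem ifix {s : G} {a : V} (h : s • a = a) : s⁻¹ • a = a := inv_smul_eq_iff.2 h.symm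

theorem mul_sq {x y : G} (c : Commute x y) (hx : x * x = 1) (hy : y * y = 1) :
    x * y * (x * y) = 1 := by
  rw [mul_assoc, ← mul_assoc y, ← c.eq, mul_assoc, hy, mul_one, hx]

namespace GS

variable (h : GS G Γ)
include h

theorem T_le {a b : V} (hab : Γ.Adj a b) {X : Subgroup G} (hQ : 𝐐 a ≤ X) {t : G}
    (ht : t ∈ 𝐆 a ⊓ 𝐆 b) (htQ : t ∉ 𝐐 a) (hX : t ∈ X) : 𝐆 a ⊓ 𝐆 b ≤ X := fun s hs => by
  rcases h.tq hab ht htQ hs with e | e
  · exact hQ e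
  · have := mul_mem hX (hQ e)
    rwa [mul_inv_cancel_left] at this

theorem F1 {b a a' : V} (ha : Γ.Adj b a) (ha' : Γ.Adj b a') (hne : a ≠ a') (hB : B G b) {x : G}
    (h1 : x ∈ 𝐙 a) (h2 : x ∈ 𝐙 a') : x ∈ 𝐙 b := by
  by_contra hx
  obtain ⟨s, hs, hsQ⟩ := h.exQ ha
  have c1 : 𝐐 a ≤ CC(𝐙 a ⊓ 𝐙 a') := (h.Q_le_CC a).trans (CC_anti inf_le_left)
  have c2 : 𝐐 a' ≤ CC(𝐙 a ⊓ 𝐙 a') := (h.Q_le_CC a').trans (CC_anti inf_le_right)
  have hD : 𝐆 b ≤ NN(𝐙 a ⊓ 𝐙 a') := h.gen ha ha' hne (h.Q_le_T' ha') (h.Q_not_le ha'.symm)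
    (c2.trans (CC_le_NN _)) (h.T_le ha (le_NN_inf (le_NN_gZ (h.Q_le ha)) (le_NN_gZ (h.Q_le ha')))
      (h.Q_le_T' ha hs) hsQ (CC_le_NN _ (c1 hs)))
  have hR : resOf 2 (𝐆 b) ≤ CC(𝐙 a ⊓ 𝐙 a') := ((h.loc ha).res_le inf_le_left
    (le_NN_inf (le_NN_self _) (le_NN_CC hD)) fun e => hsQ (e ⟨h.Q_le ha.symm hs, c1 hs⟩)).trans
    inf_le_right
  have hA := h.nB ha.symm hB
  obtain ⟨t, ht, htQ⟩ := h.exT ha.symm
  obtain ⟨c, hc, hcb⟩ := h.exists_ne ha.symm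
  have hC := h.isB hc hA
  obtain ⟨v, hv, e⟩ := h.dec ha.symm hc hcb hB (h.Z_le_ZO a h1)
  have zD : 𝐙 b ≤ 𝐙 a ⊓ 𝐙 a' := le_inf (h.ZB_le ha.symm hB) (h.ZB_le ha'.symm hB)
  have vD : v ∈ 𝐙 a ⊓ 𝐙 a' := by
    have := mul_mem (inv_mem (show x ∈ 𝐙 a ⊓ 𝐙 a' from ⟨h1, h2⟩)) (zD e)
    rwa [inv_mul_cancel_left] at this
  have v2 := h.mul_self hv
  have hz := h.cz ha.symm vD.1 ht
  set z := v * (t * v * t⁻¹) with hzd
  have e1 : t * v * t⁻¹ = v * z := by rw [hzd, ← mul_assoc, v2, one_mul]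
  have mv : v ∈ Subgroup.zpowers v ⊔ Subgroup.zpowers z :=
    Subgroup.mem_sup_left (Subgroup.mem_zpowers v)
  have mz : z ∈ Subgroup.zpowers v ⊔ Subgroup.zpowers z :=
    Subgroup.mem_sup_right (Subgroup.mem_zpowers z)
  have hN : Subgroup.zpowers v ⊔ Subgroup.zpowers z ≤ 𝐙 a ⊓ 𝐙 a' :=
    sup_le (Subgroup.zpowers_le_of_mem vD) (Subgroup.zpowers_le_of_mem (zD hz))
  have q1 : 𝐐 a ≤ NN(Subgroup.zpowers v ⊔ Subgroup.zpowers z) :=
    (c1.trans (CC_anti hN)).trans (CC_le_NN _)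
  have t1 : 𝐆 a ⊓ 𝐆 b ≤ NN(Subgroup.zpowers v ⊔ Subgroup.zpowers z) := h.T_le ha.symm q1 ht htQ
    (nn2 (e1 ▸ mul_mem mv mz) (by rw [conj_of_comm (hB.comm hz ht.2)]; exact mz))
  obtain ⟨u, hu, huQ⟩ := h.exT hc
  obtain ⟨a1, a2, a3⟩ := h.smul_ne ha.symm hc hcb ht htQ
  have e2 : u • b = t • c := h.smul_eq hc ha.symm a1 hcb.symm a2 a3.symm hu huQ
  have m1 : u * z * u⁻¹ ∈ 𝐙 (t • c) := cZ e2 hz
  have m2 : v * z ∈ 𝐙 (t • c) := e1 ▸ cZ rfl hv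
  have m3 : z * (u * z * u⁻¹) ∈ 𝐙 c := h.cz hc (zD hz).1 hu
  have e3 : u * z * u⁻¹ * (v * z) = 1 := by
    refine h.sib hc a1 a2.symm hC ?_ (mul_mem m1 m2)
    have k1 := h.cZZ vD.1 (zD hz).1
    have k2 := h.cZZ (cZ (hu.1 : u • a = a) (zD hz).1) (zD hz).1
    rw [k1.eq, ← mul_assoc, k2.eq]
    exact mul_mem m3 hv
  have t2 : 𝐆 a ⊓ 𝐆 c ≤ NN(Subgroup.zpowers v ⊔ Subgroup.zpowers z) := h.T_le hc q1 hu huQ
    (nn2 (by rw [conj_of_comm (hC.comm hv hu.2)]; exact mv)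
      (by rw [eq_of_mul_eq_one (h.mul_self m2) e3]; exact mul_mem mv mz))
  have hbot := h.bot ha.symm (hN.trans (inf_le_left.trans (h.Z_le a)))
    (hN.trans (inf_le_left.trans ((h.Z_le_Q a).trans (h.Q_le ha.symm))))
    (h.gen' ha.symm hc hcb.symm t2 t1) (by
      rw [← (h.loc ha).res_sup]
      exact sup_le ((hR.trans (CC_anti hN)).trans (CC_le_NN _)) (by rwa [inf_comm]))
  rw [hbot, Subgroup.mem_bot] at mv
  rw [mv, mul_one] at e
  exact hx e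

/-- an element of `T ∖ Q_b` does not centralize the other `Z`s -/
theorem mvZ {b a c : V} (ha : Γ.Adj b a) (hc : Γ.Adj b c) (hne : c ≠ a) (hB : B G b) {x z : G}
    (hx : x ∈ 𝐆 b ⊓ 𝐆 a) (hxQ : x ∉ 𝐐 b) (hz : z ∈ 𝐙 c) (e : x * z * x⁻¹ ∈ 𝐙 c) : z ∈ 𝐙 b := by
  obtain ⟨a1, a2, -⟩ := h.smul_ne ha hc hne hx hxQ
  exact cZ' (hx.1 : x • b = b) (h.F1 a1 hc a2 hB (cZ rfl hz) e)

theorem memQB {b a : V} (ha : Γ.Adj b a) (hB : B G b) {x : G} (hx : x ∈ 𝐆 b ⊓ 𝐆 a)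
    (hc : ∀ z ∈ 𝐕 b, Commute z x) : x ∈ 𝐐 b := by
  by_contra hxQ
  obtain ⟨c, hc', hne⟩ := h.exists_ne ha
  obtain ⟨z, hz, hz'⟩ := h.exZA hc'.symm hB
  exact hz' (h.mvZ ha hc' hne hB hx hxQ hz (by rwa [conj_of_comm (hc z (le_gV hc' hz))]))

theorem ND {b a1 a2 : V} (hB : B G b) (h3 : ∀ c c', Γ.Adj b c → Γ.Adj b c' → 𝐙 c ≤ 𝐐 c')
    (h1 : Γ.Adj b a1) (h2 : Γ.Adj b a2) (hne : a1 ≠ a2) : ∃ t ∈ 𝐐 b, t ∈ 𝐐 a1 ∧ t ∉ 𝐐 a2 := by
  by_contra hn
  push Not at hn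
  obtain ⟨s, hs, hsQ⟩ := h.exQ h1
  have hsT := h.Q_le_T' h1 hs
  obtain ⟨b1, b2, b3⟩ := h.smul_ne h1 h2 hne.symm hsT hsQ
  have hn' : ∀ t ∈ 𝐐 b, t ∈ 𝐐 a1 → t ∈ 𝐐 (s • a2) := fun t k1 k2 => by
    have := cQ (g := s) rfl (hn (s⁻¹ * t * s⁻¹⁻¹) (cQ (ifix hsT.1) k1)
      (cQ (ifix hsT.2) k2))
    simpa [mul_assoc] using this
  obtain ⟨z, hz, hz'⟩ := h.exZA h2.symm hB
  have hz3 : s * z * s⁻¹ ∈ 𝐙 (s • a2) := cZ rfl hz
  have k1 : Commute z (s * z * s⁻¹) := h.cZQ hz (h3 _ _ b1 h2 hz3)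
  have ss : Commute z (s * s) := h.cZQ hz (hn _ (h.sqQ h1 hsT) (mul_mem hs hs))
  have cs : Commute (z * (s * z * s⁻¹)) s := comm_of_conj (by
    calc s * (z * (s * z * s⁻¹)) * s⁻¹ = (s * z * s⁻¹) * ((s * s) * z * (s * s)⁻¹) := by group
      _ = _ := by rw [conj_of_comm ss, k1.eq])
  have hy : z * (s * z * s⁻¹) ∈ 𝐙 a1 := by
    refine h.ZO_Z (h.nB h1.symm hB) (mul_mem (h3 _ _ h2 h1 hz) (h3 _ _ b1 h1 hz3)) ?_ fun q hq => ?_
    · exact mul_sq k1 (h.mul_self hz) (h.mul_self hz3)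
    · have key : ∀ q ∈ 𝐐 b, q ∈ 𝐐 a1 → Commute (z * (s * z * s⁻¹)) q := fun q q1 q2 =>
        (h.cZQ hz (hn q q1 q2)).mul_left (h.cZQ hz3 (hn' q q1 q2))
      rcases h.tq h1 hsT hsQ (h.Q_le_T' h1 hq) with e | e
      · exact key q e hq
      · have := cs.mul_right (key _ e (mul_mem (inv_mem hs) hq))
        rwa [mul_inv_cancel_left] at this
  obtain ⟨t, ht, htQ⟩ := h.exQ h1.symm
  have htT := h.Q_le_T' h1.symm ht
  have hu := h.cz h2.symm hz (h.Q_le_T' h2.symm ht)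
  set u := z * (t * z * t⁻¹) with hud
  have e1 : t * z * t⁻¹ = z * u := by rw [hud, ← mul_assoc, h.mul_self hz, one_mul]
  have m1 : s⁻¹ * t * s⁻¹⁻¹ ∈ 𝐐 b := cQ (ifix hsT.1) ht
  have m2 : t⁻¹ * (s⁻¹ * t * s⁻¹⁻¹) ∈ 𝐐 a1 := h.mulQ h1.symm (inv_mem htT) (h.Q_le_T' h1.symm m1)
    (fun k => htQ (inv_mem_iff.1 k)) fun k => htQ (cQ' (ifix hsT.2) k)
  have e2 := conj_of_comm (h.cZQ hz (hn _ (mul_mem (inv_mem ht) m1) m2))
  have e3 := conj_of_comm (hB.comm hu hsT.1)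
  have k2 : Commute u (s * z * s⁻¹) := hB.comm hu (h.Q_le b1.symm (h.Z_le_Q _ hz3))
  have ct : Commute (z * (s * z * s⁻¹)) t := comm_of_conj (by
    calc t * (z * (s * z * s⁻¹)) * t⁻¹ = (t * z * t⁻¹) * (s * (t * (t⁻¹ * (s⁻¹ * t * s⁻¹⁻¹) * z *
          (t⁻¹ * (s⁻¹ * t * s⁻¹⁻¹))⁻¹) * t⁻¹) * s⁻¹) := by group
      _ = z * (u * (s * z * s⁻¹)) * (s * u * s⁻¹) := by rw [e2, e1]; group
      _ = z * (s * z * s⁻¹) * (u * u) := by rw [e3, k2.eq]; group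
      _ = _ := by rw [h.mul_self hu, mul_one])
  have hb := h.fix h1.symm hy htT htQ ct
  refine hz' (h.mvZ h1 h2 hne.symm hB hsT hsQ hz ?_)
  have := mul_mem (inv_mem hz) (h.ZB_le h2.symm hB hb)
  rwa [inv_mul_cancel_left] at this

end GS

/-- a bi-infinite non-backtracking path with central vertices at even places -/
structure BL (G : Type*) [Group G] {V : Type*} [MulAction G V] (Γ : SimpleGraph V) (p : ℤ → V) :
    Prop where
  adj : ∀ i j : ℤ, j = i + 1 → Γ.Adj (p i) (p j)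
  ne : ∀ i j : ℤ, j = i + 2 → p i ≠ p j
  typ : ∀ i : ℤ, B G (p i) ↔ i % 2 = 0

theorem BL.adj' {p : ℤ → V} (hp : BL G Γ p) (i j : ℤ) (e : i = j + 1) : Γ.Adj (p i) (p j) :=
  (hp.adj j i e).symm

theorem BL.ne' {p : ℤ → V} (hp : BL G Γ p) (i j : ℤ) (e : i = j + 2) : p i ≠ p j :=
  (hp.ne j i e).symm

theorem BL.b {p : ℤ → V} (hp : BL G Γ p) (i : ℤ) (e : i % 2 = 0) : B G (p i) := (hp.typ i).2 e

theorem BL.nb {p : ℤ → V} (hp : BL G Γ p) (i : ℤ) (e : i % 2 = 1) : ¬ B G (p i) := fun k => by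
  have := (hp.typ i).1 k; omega

theorem BL.shift {p : ℤ → V} (hp : BL G Γ p) (d : ℤ) (hd : d % 2 = 0) :
    BL G Γ fun i => p (i + d) :=
  ⟨fun i j e => hp.adj _ _ (by omega), fun i j e => hp.ne _ _ (by omega),
    fun i => (hp.typ _).trans (by omega)⟩

theorem BL.rev {p : ℤ → V} (hp : BL G Γ p) (d : ℤ) (hd : d % 2 = 0) :
    BL G Γ fun i => p (d - i) :=
  ⟨fun i j e => hp.adj' _ _ (by omega), fun i j e => hp.ne' _ _ (by omega),
    fun i => (hp.typ _).trans (by omega)⟩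

theorem BL.glue {p q : ℤ → V} (hp : BL G Γ p) (hq : BL G Γ q) (m : ℤ) (e1 : p m = q m)
    (e2 : p (m + 1) = q (m + 1) ∨ p (m - 1) ≠ q (m + 1)) :
    ∃ r, BL G Γ r ∧ (∀ i, i ≤ m → r i = p i) ∧ ∀ i, m ≤ i → r i = q i := by
  have k1 : ∀ i, i ≤ m → (if i ≤ m then p i else q i) = p i := fun i hi => if_pos hi
  have k2 : ∀ i, m ≤ i → (if i ≤ m then p i else q i) = q i := fun i hi => by
    split_ifs with e
    · rw [le_antisymm e hi, e1]
    · rfl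
  refine ⟨fun i => if i ≤ m then p i else q i, ⟨fun i j e => ?_, fun i j e => ?_, fun i => ?_⟩,
    k1, k2⟩
  · by_cases c : j ≤ m
    · rw [k1 i (by omega), k1 j c]; exact hp.adj i j e
    · rw [k2 i (by omega), k2 j (by omega)]; exact hq.adj i j e
  · by_cases c : j ≤ m
    · rw [k1 i (by omega), k1 j c]; exact hp.ne i j e
    by_cases c' : m ≤ i
    · rw [k2 i c', k2 j (by omega)]; exact hq.ne i j e
    rw [k1 i (by omega), k2 j (by omega), show i = m - 1 by omega, show j = m + 1 by omega]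
    rcases e2 with e2 | e2
    · rw [← e2]; exact hp.ne _ _ (by omega)
    · exact e2
  · by_cases c : i ≤ m
    · rw [k1 i c]; exact hp.typ i
    · rw [k2 i (by omega)]; exact hq.typ i

namespace GS

variable (h : GS G Γ)
include h

theorem blsmul {p : ℤ → V} (hp : BL G Γ p) (g : G) : BL G Γ fun i => g • p i :=
  ⟨fun i j e => h.smul g (hp.adj i j e), fun i j e k => hp.ne i j e (smul_left_cancel g k),
    fun i => ⟨fun k => (hp.typ i).1 (by simpa using k.smul g⁻¹), fun k => ((hp.typ i).2 k).smul g⟩⟩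

theorem exBL {b a : V} (hB : B G b) (ha : Γ.Adj b a) : ∃ p, BL G Γ p ∧ p 0 = b ∧ p 1 = a := by
  obtain ⟨c, hc, hcb⟩ := h.exists_ne ha.symm
  obtain ⟨g1, hg1, e1⟩ := h.tr ha.symm hc
  obtain ⟨d, hd, hda⟩ := h.exists_ne hc.symm
  obtain ⟨g2, hg2, e2⟩ := h.tr hc.symm hd
  have f1 : (g2 * g1) • b = c := by rw [mul_smul, e1]; exact hg2
  have f2 : (g2 * g1) • a = d := by rw [mul_smul, (hg1 : g1 • a = a), e2]
  set g := g2 * g1
  let p : ℤ → V := fun i => g ^ (i / 2) • (if i % 2 = 0 then b else a)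
  have p0 : ∀ i j : ℤ, i = 2 * j → p i = g ^ j • b := fun i j e => by
    simp only [p]; rw [if_pos (by omega), show i / 2 = j by omega]
  have p1 : ∀ i j : ℤ, i = 2 * j + 1 → p i = g ^ j • a := fun i j e => by
    simp only [p]; rw [if_neg (by omega), show i / 2 = j by omega]
  refine ⟨p, ⟨fun i j e => ?_, fun i j e => ?_, fun i => ?_⟩, by rw [p0 0 0 rfl]; simp,
    by rw [p1 1 0 rfl]; simp⟩
  · by_cases c0 : i % 2 = 0
    · rw [p0 i (i / 2) (by omega), p1 j (i / 2) (by omega)]; exact h.smul _ ha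
    · rw [p1 i (i / 2) (by omega), p0 j (i / 2 + 1) (by omega), zpow_add_one, mul_smul, f1]
      exact h.smul _ hc
  · by_cases c0 : i % 2 = 0
    · rw [p0 i (i / 2) (by omega), p0 j (i / 2 + 1) (by omega), zpow_add_one, mul_smul, f1]
      exact fun k => hcb (smul_left_cancel _ k).symm
    · rw [p1 i (i / 2) (by omega), p1 j (i / 2 + 1) (by omega), zpow_add_one, mul_smul, f2]
      exact fun k => hda (smul_left_cancel _ k).symm
  · by_cases c0 : i % 2 = 0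
    · rw [p0 i (i / 2) (by omega)]; exact ⟨fun _ => c0, fun _ => hB.smul _⟩
    · rw [p1 i (i / 2) (by omega)]
      exact ⟨fun k => absurd (by simpa using k.smul (g ^ (i / 2))⁻¹) (h.nB ha.symm hB),
        fun k => absurd k c0⟩

theorem exBL' {a : V} (i : ℤ) (ha : B G a ↔ i % 2 = 0) : ∃ p, BL G Γ p ∧ p i = a := by
  obtain ⟨b, hb⟩ := h.ex a
  by_cases c : i % 2 = 0
  · obtain ⟨p, hp, e, -⟩ := h.exBL (ha.2 c) hb
    exact ⟨_, hp.shift (-i) (by omega), by simpa using e⟩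
  · obtain ⟨p, hp, -, e⟩ := h.exBL (h.isB hb fun k => c (ha.1 k)) hb.symm
    exact ⟨_, hp.shift (1 - i) (by omega), by simpa using e⟩

theorem modR {p : ℤ → V} (hp : BL G Γ p) (m : ℤ) {c : V} (hc : Γ.Adj (p m) c)
    (hne : c ≠ p (m - 1)) : ∃ q, BL G Γ q ∧ (∀ i, i ≤ m → q i = p i) ∧ q (m + 1) = c := by
  obtain ⟨g, hg, e⟩ := h.tr (hp.adj m (m + 1) rfl) hc
  obtain ⟨r, hr, e1, e2⟩ := hp.glue (h.blsmul hp g) m (hg : g • p m = p m).symm
    (Or.inr (by rw [e]; exact hne.symm))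
  exact ⟨r, hr, e1, (e2 _ (by omega)).trans e⟩

theorem modL {p : ℤ → V} (hp : BL G Γ p) (m : ℤ) {c : V} (hc : Γ.Adj (p m) c)
    (hne : c ≠ p (m + 1)) : ∃ q, BL G Γ q ∧ (∀ i, m ≤ i → q i = p i) ∧ q (m - 1) = c := by
  obtain ⟨g, hg, e⟩ := h.tr (hp.adj' m (m - 1) (by omega)) hc
  obtain ⟨r, hr, e1, e2⟩ := (h.blsmul hp g).glue hp m (hg : g • p m = p m)
    (Or.inr (by rw [e]; exact hne))
  exact ⟨r, hr, e2, (e1 _ (by omega)).trans e⟩

theorem dl0 {p : ℤ → V} (hp : BL G Γ p) (i : ℤ) (n : ℕ) : Γ.dist (p i) (p (i + n)) ≤ n := by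
  induction n with
  | zero => simp
  | succ n ih =>
    have := h.dist_adj' (p i) (hp.adj' (i + (n + 1 : ℕ)) (i + n) (by push_cast; omega))
    omega

theorem dl {p : ℤ → V} (hp : BL G Γ p) (i j : ℤ) : Γ.dist (p i) (p j) ≤ (i - j).natAbs := by
  rcases le_total i j with e | e
  · have := h.dl0 hp i (i - j).natAbs
    rwa [show i + ((i - j).natAbs : ℤ) = j by omega] at this
  · have := h.dl0 hp j (i - j).natAbs
    rwa [show j + ((i - j).natAbs : ℤ) = i by omega, Γ.dist_comm] at this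

theorem geo (n : ℕ) : ∀ {a c : V} (i : ℤ), (B G a ↔ i % 2 = 0) → Γ.dist a c = n →
    ∃ p, BL G Γ p ∧ p i = a ∧ p (i + n) = c := by
  induction n with
  | zero =>
    intro a c i ha hd
    obtain ⟨p, hp, e⟩ := h.exBL' i ha
    exact ⟨p, hp, e, by simpa [e] using h.conn.dist_eq_zero_iff.1 hd⟩
  | succ n ih =>
    intro a c i ha hd
    obtain ⟨c', h1, h2⟩ := h.step (a := a) (b := c) (by omega)
    obtain ⟨p, hp, e1, e2⟩ := ih (c := c') i ha (by omega)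
    by_cases k : c = p (i + n - 1)
    · have := h.dl hp i (i + n - 1)
      rw [← k, e1] at this
      have n0 : n = 0 := by omega
      subst n0
      refine ⟨_, hp.rev (2 * i) (by omega), by rw [← e1]; congr 1; omega, ?_⟩
      rw [k]; congr 1; push_cast; omega
    · obtain ⟨q, hq, f1, f2⟩ := h.modR hp (i + n) (e2 ▸ h1.symm) k
      exact ⟨q, hq, (f1 i (by omega)).trans e1, by rw [← f2]; congr 1; push_cast; omega⟩

end GS

/-- transitivity on segments -/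
def TR (G : Type*) [Group G] {V : Type*} [MulAction G V] (Γ : SimpleGraph V) (i j : ℤ) : Prop :=
  ∀ p q, BL G Γ p → BL G Γ q → ∃ g : G, ∀ k, i ≤ k → k ≤ j → g • p k = q k

/-- a witness fixing a segment of length `n` ending at a place of parity `j` -/
def WT (G : Type*) [Group G] {V : Type*} [MulAction G V] (Γ : SimpleGraph V) (n j : ℤ) : Prop :=
  ∃ p : ℤ → V, ∃ s : G, BL G Γ p ∧ (∀ k, j - n ≤ k → k ≤ j → s • p k = p k) ∧ s ∉ gQ G (p j)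

theorem WT.mono {n j n' j' : ℤ} (w : WT G Γ n j) (hn : n' ≤ n) (hj : j' % 2 = j % 2) :
    WT G Γ n' j' := by
  obtain ⟨p, s, hp, h1, h2⟩ := w
  exact ⟨_, s, hp.shift (j - j') (by omega), fun k k1 k2 => h1 _ (by omega) (by omega),
    by simpa using h2⟩

namespace GS

variable (h : GS G Γ)
include h

theorem tr1 (i : ℤ) : TR G Γ i (i + 1) := fun p q hp hq => by
  have a1 := hp.adj i (i + 1) rfl
  obtain ⟨g, hg⟩ : ∃ g : G, g • p i = q i := by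
    obtain ⟨g, e | e⟩ := h.edge a1 (q i)
    · exact ⟨g, e⟩
    · have t1 := (h.blsmul hp g).typ (i + 1)
      have t2 := hq.typ i
      simp only [e] at t1
      have := t1.symm.trans t2
      omega
  obtain ⟨g', hg', e⟩ := h.tr (hg ▸ h.smul g a1) (hq.adj i (i + 1) rfl)
  refine ⟨g' * g, fun k k1 k2 => ?_⟩
  rcases (show k = i ∨ k = i + 1 by omega) with rfl | rfl
  · rw [mul_smul, hg]; exact hg'
  · rw [mul_smul, e]

theorem trS {i j : ℤ} (hij : i < j) (t : TR G Γ i j) (w : WT G Γ (j - i) j) : TR G Γ i (j + 1) :=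
  fun p q hp hq => by
  obtain ⟨g, hg⟩ := t p q hp hq
  by_cases e : g • p (j + 1) = q (j + 1)
  · refine ⟨g, fun k k1 k2 => ?_⟩
    rcases (show k ≤ j ∨ k = j + 1 by omega) with c | rfl
    exacts [hg k k1 c, e]
  obtain ⟨r, s, hr, h1, h2⟩ := w
  obtain ⟨g', hg'⟩ := t r q hr hq
  have f : ∀ k, i ≤ k → k ≤ j → (g' * s * g'⁻¹) • q k = q k := fun k k1 k2 =>
    cG (hg' k k1 k2) (h1 k (by omega) k2)
  refine ⟨g' * s * g'⁻¹ * g, fun k k1 k2 => ?_⟩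
  rcases (show k ≤ j ∨ k = j + 1 by omega) with c | rfl
  · rw [mul_smul, hg k k1 c, f k k1 c]
  · rw [mul_smul]
    refine h.smul_eq (hq.adj' j (j - 1) (by omega)) ?_ (hq.adj j (j + 1) rfl) ?_
      (hq.ne' _ _ (by omega)) e ⟨f j hij.le le_rfl, f (j - 1) (by omega) (by omega)⟩
      fun k => h2 (cQ' (hg' j hij.le le_rfl) k)
    · rw [← hg j hij.le le_rfl]; exact h.smul g (hp.adj _ _ rfl)
    · rw [← hg (j - 1) (by omega) (by omega)]
      exact fun k => hp.ne' (j + 1) (j - 1) (by omega) (smul_left_cancel g k)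

theorem trans {i : ℤ} (n : ℕ) (w : ∀ k, i < k → k ≤ i + n → WT G Γ (k - i) k) :
    TR G Γ i (i + n + 1) := by
  induction n with
  | zero => simpa using h.tr1 i
  | succ n ih =>
    have := h.trS (i := i) (j := i + n + 1) (by omega) (ih fun k k1 k2 => w k k1 (by push_cast; omega))
      (w _ (by omega) (by push_cast; omega))
    rwa [show i + ((n + 1 : ℕ) : ℤ) + 1 = i + n + 1 + 1 by push_cast; omega]

theorem trans' {i j n0 n1 : ℤ} (hij : i < j) (w0 : WT G Γ n0 0) (w1 : WT G Γ n1 1)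
    (c0 : ∀ k, i < k → k < j → k % 2 = 0 → k - i ≤ n0)
    (c1 : ∀ k, i < k → k < j → k % 2 = 1 → k - i ≤ n1) : TR G Γ i j := by
  have := h.trans (i := i) (j - i - 1).toNat fun k k1 k2 => by
    by_cases c : k % 2 = 0
    · exact w0.mono (c0 k k1 (by omega) c) (by omega)
    · exact w1.mono (c1 k k1 (by omega) (by omega)) (by omega)
  rwa [show i + ((j - i - 1).toNat : ℤ) + 1 = j by omega] at this

end GS

end Lead.Gam
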