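import Cfsg.Agent.Lead.Gam3

/-!
Goldschmidt amalgams, odd critical distance: every line is critical.
-/

set_option autoImplicit false
set_option linter.unusedSectionVars false

namespace Lead.Gam

open H10 Cfsg
open scoped commutatorElement

variable {G : Type*} [Group G] [Finite G] {V : Type*} [MulAction G V] {Γ : SimpleGraph V}

local notation "𝐆" a:max => MulAction.stabilizer G a
local notation "𝐐" a:max => gQ G a
local notation "𝐙" a:max => gZ G a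
local notation "𝐕" a:max => gV G Γ a

/-- odd critical distance `b = M + 1` -/
structure OD (G : Type*) [Group G] {V : Type*} [MulAction G V] (Γ : SimpleGraph V) (b : ℕ)
    (M : ℤ) : Prop extends CR G Γ b where
  hM : (b : ℤ) = M + 1
  ev : M % 2 = 0

namespace OD

variable {b : ℕ} {M : ℤ} (h : OD G Γ b M)
include h

theorem b3 : 3 ≤ b := by have := h.two; have := h.hM; have := h.ev; omega

theorem d1 {a c : V} (hc : Γ.Adj a c) : Γ.dist a c = 1 := SimpleGraph.dist_eq_one_iff_adj.2 hc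

theorem VQa {a c : V} (hc : Γ.Adj a c) : 𝐕 a ≤ 𝐐 c :=
  h.VQ (by have := h.b3; rw [h.d1 hc]; omega)

theorem VQ0 (a : V) : 𝐕 a ≤ 𝐐 a := h.VQ (by have := h.b3; rw [Γ.dist_self]; omega)

theorem sibZ {a : V} (c c' : V) (hc : Γ.Adj a c) (hc' : Γ.Adj a c') : 𝐙 c ≤ 𝐐 c' :=
  (le_gV hc).trans (h.VQa hc')

theorem VC {a : V} {u : G} (hu : ∀ c, Γ.Adj a c → u ∈ 𝐐 c) {x : G} (hx : x ∈ 𝐕 a) :
    Commute x u := by
  have : 𝐕 a ≤ CC(Subgroup.zpowers u) := gV_le fun c hc =>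
    h.Z_le_CC (Subgroup.zpowers_le_of_mem (hu c hc))
  exact (mem_CC.1 (this hx) u (Subgroup.mem_zpowers u)).symm

theorem Vc {a : V} {x y : G} (hx : x ∈ 𝐕 a) (hy : y ∈ 𝐕 a) : Commute x y :=
  h.VC (fun _ hc => h.VQa hc hy) hx

theorem V2 {a : V} {x : G} (hx : x ∈ 𝐕 a) : x * x = 1 := by
  have : 𝐕 a ≤ ZO 2 (𝐕 a) := gV_le fun c hc z hz => mem_ZO.2 ⟨le_gV hc hz,
    mem_CC.2 fun y hy => (h.Vc hy (le_gV hc hz)).eq, by rw [sq]; exact h.mul_self hz⟩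
  have := (mem_ZO.1 (this hx)).2.2
  rwa [sq] at this

theorem w0 : WT G Γ (2 * M) 0 := by
  obtain ⟨p, hp, hn⟩ := h.crit
  obtain ⟨z, hz, hz'⟩ := SetLike.not_le_iff_exists.1 hn
  have := h.hM
  have := h.ev
  refine WT.mono (n := 2 * M) (j := b - 1) ⟨p, z, hp, fun k k1 k2 => h.lZG hp _ k (by omega) hz, hz'⟩
    le_rfl (by omega)

theorem S_smul {a c : V} (g : G) (hs : ¬ 𝐕 a ≤ 𝐐 c) : ¬ 𝐕 (g • a) ≤ 𝐐 (g • c) := by
  rwa [h.V_smul, gQ_smul, cj_le_cj]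

section
variable (ne : ¬ WT G Γ (M - 1) 1) {p : ℤ → V} (hp : BL G Γ p)
include ne hp

theorem neQ {u : G} (hu : u ∈ 𝐐 (p 0)) (hf : ∀ k, 0 ≤ k → k ≤ M - 2 → u • p k = p k) {c : V}
    (hc : Γ.Adj (p 0) c) (hne : c ≠ p 1) : u ∈ 𝐐 c := by
  obtain ⟨q, hq, e1, e2⟩ := h.modL hp 0 hc hne
  by_contra hn
  refine ne ⟨_, u, hq.rev 0 rfl, fun k k1 k2 => ?_, by
    rwa [e2]⟩
  rcases (show k = 1 ∨ k ≤ 0 by omega) with rfl | c0
  · rw [e2]; exact h.Q_le hc hu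
  · rw [e1 _ (by omega)]; exact hf _ (by omega) (by omega)

theorem sym (hs : ¬ 𝐕 (p 0) ≤ 𝐐 (p M)) : ¬ 𝐕 (p M) ≤ 𝐐 (p 0) := fun hle => hs fun x hx => by
  have := h.hM
  have := h.b3
  refine h.memQB (hp.adj' M (M - 1) (by omega)) (hp.b M h.ev)
    ⟨h.lVG hp 0 M (by omega) hx, h.lVG hp 0 (M - 1) (by omega) hx⟩ fun u hu => ?_
  refine (h.VC (fun c hc => ?_) hx).symm
  by_cases e : c = p 1
  · rw [e]; exact h.lVQ hp M 1 (by omega) hu
  · exact h.neQ ne hp (hle hu) (fun k k1 k2 => h.lVG hp M k (by omega) hu) hc e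

theorem shl (hs : ¬ 𝐕 (p 0) ≤ 𝐐 (p M)) : ¬ 𝐕 (p (-2)) ≤ 𝐐 (p (M - 2)) := fun hle => by
  have := h.hM
  have := h.b3
  have := h.ev
  obtain ⟨u, hu, huQ⟩ := SetLike.not_le_iff_exists.1 (h.sym ne hp hs)
  obtain ⟨x, hx, hxQ⟩ := SetLike.not_le_iff_exists.1 hs
  have a1 := hp.adj' (M - 1) (M - 2) (by omega)
  have a2 := hp.adj' M (M - 1) (by omega)
  have a3 := hp.adj' 0 (-1) (by omega)
  have a4 := hp.adj' (-1) (-2) (by omega)
  have a5 := hp.adj 0 1 rfl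
  have k1 : 𝐕 (p (-2)) ≤ 𝐐 (p (M - 1)) := fun y hy =>
    h.neQ ne (hp.rev (M - 2) (by omega)) (by simpa using hle hy)
      (fun k k1 k2 => h.lVG hp (-2) _ (by omega) hy) (by simpa using a1.symm)
      (hp.ne' _ _ (by omega))
  set U := 𝐕 (p (-2)) ⊔ 𝐕 (p 0) with hU
  have k2 : U ≤ 𝐐 (p (M - 1)) := sup_le k1 (h.lVQ hp _ _ (by omega))
  have k3 : ∀ y ∈ U, y ∈ 𝐐 (p M) → Commute u y := fun y hy hyQ => by
    refine h.VC (fun c hc => ?_) hu
    by_cases e : c = p (M - 1)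
    · rw [e]; exact k2 hy
    refine h.neQ ne (hp.rev M (by omega)) (by simpa using hyQ) (fun k k1 k2' => ?_)
      (by simpa using hc) e
    rcases (show k = 0 ∨ k = 1 ∨ 2 ≤ k by omega) with rfl | rfl | c2
    · simpa using gQ_le _ hyQ
    · exact gQ_le _ (k2 hy)
    · exact (show U ≤ 𝐆 (p (M - k)) from sup_le (h.lVG hp _ _ (by omega))
        (h.lVG hp _ _ (by omega))) hy
  have uT : u ∈ 𝐆 (p 0) ⊓ 𝐆 (p 1) := ⟨h.lVG hp M 0 (by omega) hu, h.lVG hp M 1 (by omega) hu⟩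
  have k4 : u ∈ NN(U) := mem_NN_of_conj_mem fun y hy => by
    have xU : x ∈ U := Subgroup.mem_sup_right hx
    rcases h.tq a2 (h.Q_le_T' a2 (k2 xU)) hxQ (h.Q_le_T' a2 (k2 hy)) with e | e
    · rwa [conj_of_comm (k3 y hy e).symm]
    · have m := mul_mem (inv_mem xU) hy
      have := mul_mem (Subgroup.mem_sup_right (h.cV (uT.1 : u • p 0 = p 0) hx) : _ ∈ U) m
      rw [← conj_of_comm (k3 _ m e).symm] at this
      simpa [mul_assoc] using this
  have k5 : 𝐐 (p (-1)) ≤ NN(U) := le_NN_sup (h.le_NN_V (h.Q_le a4)) (h.le_NN_V (h.Q_le a3.symm))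
  obtain ⟨b1, b2, -⟩ := h.smul_ne a5 a3 (hp.ne _ _ (by omega)) uT huQ
  obtain ⟨t, t1, t2, t3⟩ := h.ND (hp.b 0 rfl) h.sibZ b1 a3 b2
  have k6 : t ∈ NN(U) := by
    have := k5 (cQ' (g := u) rfl (x := u⁻¹ * t * u) (by simpa [mul_assoc] using t2))
    have := mul_mem (mul_mem k4 this) (inv_mem k4)
    simpa [mul_assoc] using this
  have tT := h.Q_le_T' a3.symm t1
  obtain ⟨c1, c2, c3⟩ := h.smul_ne a3.symm a4 (hp.ne _ _ (by omega)) tT t3
  have k7 : ∀ c, Γ.Adj (p (-1)) c → 𝐕 c ≤ U := fun c hc => by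
    rcases h.three a3.symm a4 c1 (hp.ne' _ _ (by omega)) c3.symm c2.symm hc with e | e | e
    · rw [e]; exact le_sup_right
    · rw [e]; exact le_sup_left
    · rw [e, h.V_smul]; exact cj_le_of_mem_NN k6 le_sup_left
  have k8 : 𝐆 (p (-1)) ≤ NN(U) := le_NN_of_cj_le fun g hg => by
    rw [hU, cj_sup, ← h.V_smul, ← h.V_smul]
    exact sup_le (k7 _ (h.smul_of_mem hg a4)) (k7 _ (h.smul_of_mem hg a3.symm))
  have k9 : 𝐆 (p 0) ≤ NN(U) := h.gen a3 a5 (hp.ne _ _ (by omega)) (Subgroup.zpowers_le_of_mem uT)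
    (fun e => huQ (e (Subgroup.mem_zpowers u))) (Subgroup.zpowers_le_of_mem k4)
    (inf_le_right.trans k8)
  have := h.bot a3 (N := U) (sup_le (h.lVG hp _ _ (by omega)) (h.lVG hp _ _ (by omega)))
    (sup_le (h.lVG hp _ _ (by omega)) (h.lVG hp _ _ (by omega))) k9 k8
  exact hs (le_sup_right.trans (this.le.trans bot_le))

theorem good {i : ℤ} (hi : i % 2 = 0) (hs : ¬ 𝐕 (p i) ≤ 𝐐 (p (i + M))) (d : ℤ) :
    ¬ 𝐕 (p (i + 2 * d)) ≤ 𝐐 (p (i + 2 * d + M)) := by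
  have := h.ev
  induction d using Int.induction_on with
  | zero => simpa using hs
  | succ d ih =>
    have k1 := h.sym ne (hp.shift (i + 2 * d) (by omega)) (by simpa [add_comm M] using ih)
    have k2 := h.shl ne (hp.rev (i + 2 * d + M) (by omega)) (by simpa [add_comm M] using k1)
    have k3 := h.sym ne (hp.rev (i + 2 * d + M + 2) (by omega)) (by
      rwa [show i + 2 * d + M + 2 - 0 = i + 2 * d + M - -2 by omega,
        show i + 2 * d + M + 2 - M = i + 2 * d + M - (M - 2) by omega])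
    rwa [show i + 2 * (d + 1) = i + 2 * d + M + 2 - M by omega,
      show i + 2 * d + M + 2 - M + M = i + 2 * d + M + 2 - 0 by omega]
  | pred d ih =>
    have k2 := h.shl ne (hp.shift (i + 2 * -d) (by omega)) (by simpa [add_comm M] using ih)
    rwa [show i + 2 * (-d - 1) = -2 + (i + 2 * -d) by omega,
      show -2 + (i + 2 * -d) + M = M - 2 + (i + 2 * -d) by omega]

end

theorem allS {p : ℤ → V} (hp : BL G Γ p) : ¬ 𝐕 (p 0) ≤ 𝐐 (p M) := by
  have := h.hM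
  have := h.b3
  have := h.ev
  obtain ⟨q, hq, hn⟩ := h.crit
  have hs : ¬ 𝐕 (q 0) ≤ 𝐐 (q M) := fun e => hn (by
    rw [show (b : ℤ) - 1 = M by omega]; exact (le_gV (hq.adj' _ _ (by omega))).trans e)
  by_cases ne : WT G Γ (M - 1) 1
  · obtain ⟨g, hg⟩ := h.trans' (i := 0) (j := M) (by omega) h.w0 ne (fun k _ _ _ => by omega)
      (fun k _ _ _ => by omega) q p hq hp
    rw [← hg 0 le_rfl (by omega), ← hg M (by omega) le_rfl]
    exact h.S_smul g hs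
  obtain ⟨g, hg⟩ := h.tr1 0 q p hq hp
  obtain ⟨r, hr, e1, e2⟩ := (h.blsmul hq g).glue hp 1 (hg 1 (by omega) (by omega))
    (Or.inr (by rw [show (1 : ℤ) - 1 = 0 by omega, hg 0 le_rfl (by omega)]; exact hp.ne _ _ rfl))
  have k1 := h.good ne hq (i := 0) rfl (by simpa using hs) (-M / 2)
  rw [show 0 + 2 * (-M / 2) = -M by omega] at k1
  have k2 := h.good ne hr (i := -M) (by omega) (by
    rw [e1 _ (by omega), e1 _ (by omega)]; exact h.S_smul g k1) (M / 2)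
  rwa [show -M + 2 * (M / 2) = 0 by omega, zero_add, e1 0 (by omega), e2 M (by omega),
    hg 0 le_rfl (by omega)] at k2

theorem allS' {p : ℤ → V} (hp : BL G Γ p) : ¬ 𝐕 (p M) ≤ 𝐐 (p 0) := by
  simpa using h.allS (hp.rev M h.ev)

theorem R0 {p : ℤ → V} (hp : BL G Γ p) {a : V} (ha : Γ.Adj (p 0) a) (hne : a ≠ p 1) :
    ¬ 𝐙 a ≤ 𝐐 (p M) := fun hle => by
  have := h.hM
  have := h.b3
  obtain ⟨u, hu, huQ⟩ := SetLike.not_le_iff_exists.1 (h.allS' hp)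
  have uT : u ∈ 𝐆 (p 0) ⊓ 𝐆 (p 1) := ⟨h.lVG hp M 0 (by omega) hu, h.lVG hp M 1 (by omega) hu⟩
  have a5 := hp.adj 0 1 rfl
  obtain ⟨b1, b2, b3⟩ := h.smul_ne a5 ha hne uT huQ
  refine h.allS hp (gV_le fun c hc => ?_)
  rcases h.three a5 ha b1 hne.symm b3.symm b2.symm hc with e | e | e
  · rw [e]; exact h.lZQ hp _ _ (by omega)
  · rw [e]; exact hle
  · rw [e, gZ_smul]; exact cj_le_of_mem (h.VQ0 _ hu) hle

end OD

end Lead.Gam
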