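import Cfsg.Agent.Lead.Gam4

/-!
Goldschmidt amalgams, odd critical distance: the central groups have order two.
-/

set_option autoImplicit false
set_option linter.unusedSectionVars false

namespace Lead.Gam

open H10 Cfsg
open scoped commutatorElement

variable {G : Type*} [Group G] [Finite G] {V : Type*} [MulAction G V] {Γ : SimpleGraph V}

local notation "𝐆" a:max => MulAction.stabilizer G a
local notation "𝐐" a:max => gQ G a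
local notation "𝐙" a:max => gZ G a
local notation "𝐕" a:max => gV G Γ a

theorem ncard_le {X : Subgroup G} {s : Set G} (hs : s ⊆ X) : s.ncard ≤ Nat.card X :=
  Set.ncard_le_ncard hs (Set.toFinite _)

theorem five {X : Subgroup G} (hX : Nat.card X ≤ 4) {a a' c c' : G} (m1 : a ∈ X) (m2 : a' ∈ X)
    (m3 : c ∈ X) (m4 : c' ∈ X) (n1 : a ≠ 1) (n2 : a' ≠ 1) (n3 : c ≠ 1) (n4 : c' ≠ 1) (d1 : a ≠ a')
    (d2 : a ≠ c) (d3 : a ≠ c') (d4 : a' ≠ c) (d5 : a' ≠ c') (d6 : c ≠ c') : False := by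
  have := ncard_le (X := X) (s := {1, a, a', c, c'}) (by
    rintro x (rfl | rfl | rfl | rfl | rfl) <;> first | assumption | exact X.one_mem)
  rw [Set.ncard_insert_of_notMem (by simp [n1.symm, n2.symm, n3.symm, n4.symm]),
    Set.ncard_insert_of_notMem (by simp [d1, d2, d3]),
    Set.ncard_insert_of_notMem (by simp [d4, d5]), Set.ncard_pair d6] at this
  omega

theorem three' {X : Subgroup G} (hX : Nat.card X ≤ 2) {a a' : G} (m1 : a ∈ X) (m2 : a' ∈ X)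
    (n1 : a ≠ 1) (n2 : a' ≠ 1) : a = a' := by
  by_contra d1
  have := ncard_le (X := X) (s := {1, a, a'}) (by
    rintro x (rfl | rfl | rfl) <;> first | assumption | exact X.one_mem)
  rw [Set.ncard_insert_of_notMem (by simp [n1.symm, n2.symm]), Set.ncard_pair d1] at this
  omega

namespace GS

variable (h : GS G Γ)
include h

theorem card2 {a c : V} (hac : Γ.Adj a c) {X : Subgroup G} (hX : X ≤ 𝐆 a ⊓ 𝐆 c) :
    Nat.card X ≤ 2 * Nat.card (X ⊓ 𝐐 a : Subgroup G) := by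
  by_cases e : X ≤ 𝐐 a
  · rw [inf_eq_left.2 e]; omega
  · have := (h.loc hac).relIndex_Q hX e
    rw [← Subgroup.inf_relIndex_left] at this
    exact (card_eq_of_relIndex this inf_le_left).le

theorem cardB {a c : V} (ha : B G a) (hc : B G c) : Nat.card (𝐙 a) = Nat.card (𝐙 c) := by
  obtain ⟨d, hd⟩ := h.ex a
  obtain ⟨g, e | e⟩ := h.edge hd c
  · rw [← e, gZ_smul, card_cj]
  · exact absurd (by simpa [← e] using hc.smul g⁻¹) (h.nB hd.symm ha)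

end GS

namespace OD

variable {b : ℕ} {M : ℤ} (h : OD G Γ b M)
include h

theorem dich {p : ℤ → V} (hp : BL G Γ p) : Nat.card (𝐙 (p 0)) ≤ 4 ∧
    (Nat.card (𝐙 (p 0)) ≤ 2 ∨ ∃ z, z ≠ 1 ∧ z ∈ 𝐙 (p 0) ∧ z ∈ 𝐙 (p M)) := by
  have := h.hM
  have := h.b3
  have := h.ev
  have B0 := hp.b 0 rfl
  have BM := hp.b M h.ev
  have a1 := hp.adj' 0 (-1) (by omega)
  have a2 := hp.adj M (M + 1) rfl
  have a3 := hp.adj' M (M - 1) (by omega)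
  have a4 := hp.adj' (-1) (-2) (by omega)
  have a5 := hp.adj 0 1 rfl
  have a6 := hp.adj (M + 1) (M + 2) (by omega)
  have n2 : ¬ 𝐙 (p (M + 1)) ≤ 𝐐 (p 0) := by
    simpa using h.R0 (hp.rev M h.ev) (a := p (M + 1)) (by simpa using a2) (hp.ne' _ _ (by omega))
  obtain ⟨u, hu, huQ⟩ := SetLike.not_le_iff_exists.1 n2
  have uT : u ∈ 𝐆 (p 0) ⊓ 𝐆 (p 1) := ⟨h.lZG hp _ 0 (by omega) hu, h.lZG hp _ 1 (by omega) hu⟩
  have l1 : 𝐙 (p (-2)) ≤ 𝐙 (p (-1)) := h.ZB_le a4 (hp.b _ (by omega))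
  have l2 : 𝐙 (p (M + 2)) ≤ 𝐙 (p (M + 1)) := h.ZB_le a6 (hp.b _ (by omega))
  have c1 := h.card2 a3 (X := 𝐙 (p (-2)))
    (l1.trans (le_inf (h.lZG hp _ _ (by omega)) (h.lZG hp _ _ (by omega))))
  have c2 := h.card2 a2.symm (X := 𝐙 (p (-2)) ⊓ 𝐐 (p M)) (inf_le_right.trans (h.Q_le_T' a2.symm))
  have L1 : ∀ y ∈ 𝐙 (p (-2)), y ∈ 𝐐 (p (M + 1)) → y = 1 := fun y hy hyQ =>
    h.sib a4 a1.symm (hp.ne _ _ (by omega)) (hp.b _ (by omega)) hy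
      (h.mvZ a5 a1 (hp.ne _ _ (by omega)) B0 uT huQ (l1 hy)
        (by rw [conj_of_comm (h.cZQ hu hyQ).symm]; exact l1 hy))
  have e1 : 𝐙 (p (-2)) ⊓ 𝐐 (p M) ⊓ 𝐐 (p (M + 1)) = ⊥ :=
    (Subgroup.eq_bot_iff_forall _).2 fun y hy => L1 y hy.1.1 hy.2
  rw [e1, Subgroup.card_bot] at c2
  have e2 := h.cardB B0 (hp.b (-2) (by omega))
  refine ⟨by omega, ?_⟩
  by_cases k1 : 𝐙 (p (-2)) ⊓ 𝐐 (p M) ≤ 𝐐 (p (M + 1))
  · rw [inf_eq_left.2 k1] at e1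
    rw [e1, Subgroup.card_bot] at c1
    left; omega
  obtain ⟨y, hy, hyQ⟩ := SetLike.not_le_iff_exists.1 k1
  by_cases k2 : 𝐙 (p (M + 2)) ⊓ 𝐐 (p 0) = ⊥
  · have c3 := h.card2 a5 (X := 𝐙 (p (M + 2)))
      (l2.trans (le_inf (h.lZG hp _ _ (by omega)) (h.lZG hp _ _ (by omega))))
    rw [k2, Subgroup.card_bot] at c3
    have e3 := h.cardB B0 (hp.b (M + 2) (by omega))
    left; omega
  obtain ⟨⟨w, hw⟩, w1⟩ := (Subgroup.ne_bot_iff_exists_ne_one).1 k2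
  have w1' : w ≠ 1 := fun e => w1 (Subtype.ext e)
  have yT := h.Q_le_T' a2.symm hy.2
  refine Or.inr ⟨w * (y * w * y⁻¹), fun e => w1' ?_, ?_, h.cz a2.symm (l2 hw.1) yT⟩
  · refine h.sib a6 a2.symm (hp.ne' _ _ (by omega)) (hp.b _ (by omega)) hw.1
      (h.fix a2.symm (l2 hw.1) yT hyQ (comm_of_conj ?_))
    exact (eq_of_mul_eq_one (h.mul_self (cZ (yT.1 : y • p (M + 1) = _) (l2 hw.1))) e).symm
  · have := inv_mem (h.cz a1.symm (l1 hy.1) (h.Q_le_T' a1.symm hw.2))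
    rw [inv_eq_of_mul_eq_one_right (h.mul_self hw.1)] at this
    simpa [mul_assoc, inv_eq_of_mul_eq_one_right (h.mul_self hw.1),
      inv_eq_of_mul_eq_one_right (h.mul_self hy.1)] using this

theorem K2 {a : V} (ha : B G a) : Nat.card (𝐙 a) ≤ 2 := by
  have := h.hM
  have := h.b3
  have := h.ev
  by_contra hn
  have k1 : ∀ q, BL G Γ q → ∃ z, z ≠ 1 ∧ z ∈ 𝐙 (q 0) ∧ z ∈ 𝐙 (q M) := fun q hq =>
    (h.dich hq).2.resolve_left (by rwa [h.cardB (hq.b 0 rfl) ha])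
  have k2 : ∀ q, BL G Γ q → ∃ z z', z ≠ z' ∧ z ≠ 1 ∧ z' ≠ 1 ∧ z ∈ 𝐙 (q 0) ∧ z' ∈ 𝐙 (q 0) ∧
      z ∈ 𝐙 (q (M - 1)) ∧ z' ∈ 𝐙 (q (M - 1)) ∧ z ∉ 𝐙 (q (M - 2)) ∧ z' ∉ 𝐙 (q (M - 2)) :=
    fun q hq => by
    have a1 := hq.adj (M - 1) M (by omega)
    have a2 := hq.adj' (M - 1) (M - 2) (by omega)
    have n1 := hq.ne' M (M - 2) (by omega)
    obtain ⟨c, c1, c2, c3⟩ := h.exists_third a2 a1 n1
    obtain ⟨r, hr, e1, e2⟩ := h.modR hq (M - 1) c1 (by rwa [show M - 1 - 1 = M - 2 by omega])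
    obtain ⟨z, z1, z2, z3⟩ := k1 q hq
    obtain ⟨z', y1, y2, y3⟩ := k1 r hr
    rw [show M - 1 + 1 = M by omega] at e2
    rw [e2] at y3
    rw [e1 0 (by omega)] at y2
    have BM := hq.b M h.ev
    have Bc : B G c := e2 ▸ hr.b M h.ev
    exact ⟨z, z', fun e => z1 (h.sib a1 c1 c2.symm BM z3 (e ▸ y3)), z1, y1, z2, y2,
      h.ZB_le a1 BM z3, h.ZB_le c1 Bc y3, fun e => z1 (h.sib a1 a2 n1 BM z3 e),
      fun e => y1 (h.sib c1 a2 c3 Bc y3 e)⟩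
  obtain ⟨p, hp, -⟩ := h.crit
  have a1 := hp.adj (M - 2) (M - 1) (by omega)
  have a2 := hp.adj' (M - 2) (M - 2 - 1) (by omega)
  obtain ⟨c, c1, c2, c3⟩ := h.exists_third a2 a1 (hp.ne' _ _ (by omega))
  obtain ⟨r, hr, e1, e2⟩ := h.modR hp (M - 2) c1 c3
  rw [show M - 2 + 1 = M - 1 by omega] at e2
  obtain ⟨z, z', d1, n1, n2, m1, m2, u1, u2, v1, v2⟩ := k2 p hp
  obtain ⟨y, y', d2, n3, n4, m3, m4, u3, u4, -, -⟩ := k2 r hr
  rw [e2] at u3 u4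
  rw [e1 0 (by omega)] at m3 m4
  have f : ∀ x, x ∈ 𝐙 (p (M - 1)) → x ∈ 𝐙 c → x ∈ 𝐙 (p (M - 2)) := fun x x1 x2 =>
    h.F1 a1 c1 c2.symm (hp.b _ (by omega)) x1 x2
  exact five (h.dich hp).1 m1 m2 m3 m4 n1 n2 n3 n4 d1 (fun e => v1 (f _ u1 (e ▸ u3)))
    (fun e => v1 (f _ u1 (e ▸ u4))) (fun e => v2 (f _ u2 (e ▸ u3)))
    (fun e => v2 (f _ u2 (e ▸ u4))) d2

theorem K1 {a : V} (ha : B G a) {x y : G} (hx : x ∈ 𝐙 a) (hy : y ∈ 𝐙 a) (x1 : x ≠ 1) (y1 : y ≠ 1) :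
    x = y := three' (h.K2 ha) hx hy x1 y1

theorem A3 {a c : V} (hc : Γ.Adj a c) (hB : B G c) {x y : G} (hx : x ∈ 𝐙 a) (hy : y ∈ 𝐙 a)
    (x1 : x ∉ 𝐙 c) (y1 : y ∉ 𝐙 c) : x * y ∈ 𝐙 c := by
  obtain ⟨d, hd, hne⟩ := h.exists_ne hc
  have hD := h.isB hd (h.nB hc hB)
  obtain ⟨v, hv, e1⟩ := h.dec hc hd hne hB (h.Z_le_ZO a hx)
  obtain ⟨v', hv', e2⟩ := h.dec hc hd hne hB (h.Z_le_ZO a hy)
  have := h.K1 hD hv hv' (fun e => x1 (by simpa [e] using e1)) (fun e => y1 (by simpa [e] using e2))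
  subst this
  have k := mul_mem e1 e2
  rwa [mul_assoc, ← mul_assoc v, ← (h.cZZ hy (h.ZB_le hd hD hv)).eq, mul_assoc, h.mul_self hv,
    mul_one] at k

theorem A4 {a c d e : V} (hc : Γ.Adj a c) (hd : Γ.Adj a d) (he : Γ.Adj a e) (n1 : c ≠ d)
    (n2 : e ≠ c) (n3 : e ≠ d) (hB : B G c) {x : G} (hx : x ∈ 𝐙 a) (x1 : x ∉ 𝐙 c) (x2 : x ∉ 𝐙 d) :
    x ∈ 𝐙 e := by
  have hA := h.nB hc hB
  have hE := h.isB he hA
  obtain ⟨w, hw, w1⟩ := h.exZ e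
  have hw' := h.ZB_le he hE hw
  have := h.sib hc hd n1 hB (h.A3 hc hB hx hw' x1 fun k => w1 (h.sib he hc n2 hE hw k))
    (h.A3 hd (h.isB hd hA) hx hw' x2 fun k => w1 (h.sib he hd n3 hE hw k))
  rwa [eq_of_mul_eq_one (h.mul_self hw) this]

theorem cardA {a c : V} (hc : Γ.Adj a c) (hB : B G c) : Nat.card (𝐙 a) ≤ 4 := by
  obtain ⟨d, hd, hne⟩ := h.exists_ne hc
  have hD := h.isB hd (h.nB hc hB)
  let f : 𝐙 c × 𝐙 d → 𝐙 a := fun x => ⟨x.1 * (x.2 : G)⁻¹,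
    mul_mem (h.ZB_le hc hB x.1.2) (inv_mem (h.ZB_le hd hD x.2.2))⟩
  have hf : Function.Surjective f := fun y => by
    obtain ⟨v, hv, e⟩ := h.dec hc hd hne hB (h.Z_le_ZO a y.2)
    exact ⟨(⟨_, e⟩, ⟨v, hv⟩), Subtype.ext (mul_inv_cancel_right _ _)⟩
  have := Nat.card_le_card_of_surjective f hf
  rw [Nat.card_prod] at this
  have h1 := h.K2 hB
  have h2 := h.K2 hD
  nlinarith

theorem R1 {p : ℤ → V} (hp : BL G Γ p) {a : V} (ha : Γ.Adj (p 0) a) (hne : a ≠ p 1) {x : G}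
    (hx : x ∈ 𝐙 a) (hx' : x ∉ 𝐙 (p 0)) : x ∉ 𝐐 (p M) := fun hQ => h.R0 hp ha hne fun y hy => by
  have := h.hM
  have := h.b3
  have l := h.lZQ hp 0 M (by omega)
  by_cases e : y ∈ 𝐙 (p 0)
  · exact l e
  · have := mul_mem (inv_mem hQ) (l (h.A3 ha.symm (hp.b 0 rfl) hx hy hx' e))
    rwa [inv_mul_cancel_left] at this

/-- central involutions move the vertices at distance `M + 3` -/
theorem Fx {p : ℤ → V} (hp : BL G Γ p) (i j : ℤ) (hi : i % 2 = 0) (hj : j = i + M + 2) {z : G}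
    (hz : z ∈ 𝐙 (p i)) (z1 : z ≠ 1) : z ∉ 𝐐 (p j) := by
  have a1 := hp.adj' (i + 1) i rfl
  have a2 := hp.adj (i + 1) (i + 2) (by omega)
  have := h.R1 (hp.shift (i + 2) (by omega)) (a := p (i + 1)) (by simpa using a2.symm)
    (hp.ne _ _ (by omega)) (h.ZB_le a1 (hp.b i hi) hz)
    (fun k => z1 (h.sib a1 a2 (hp.ne _ _ rfl) (hp.b i hi) hz (by simpa using k)))
  rwa [show M + (i + 2) = j by omega] at this

end OD

end Lead.Gam
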