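import Cfsg.Agent.Lead.Gam5

/-!
Goldschmidt amalgams, odd critical distance: the distance is three.
-/

set_option autoImplicit false
set_option linter.unusedSectionVars false

namespace Lead.Gam

open H10 Cfsg
open scoped commutatorElement

variable {G : Type*} [Group G] [Finite G] {V : Type*} [MulAction G V] {Γ : SimpleGraph V}

local notation "𝐆" a:max => MulAction.stabilizer G a
local notation "𝐐" a:max => gQ G a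
local notation "𝐙" a:max => gZ G a
local notation "𝐕" a:max => gV G Γ a

/-- `d` is a product of elements from the two neighbours of `β` other than `γ` -/
def Fm (G : Type*) [Group G] {V : Type*} [MulAction G V] (Γ : SimpleGraph V) (β γ : V) (d : G) :
    Prop := ∃ a2 a3 : V, ∃ x2 x3 : G, Γ.Adj β a2 ∧ Γ.Adj β a3 ∧ a2 ≠ γ ∧ a3 ≠ γ ∧ a2 ≠ a3 ∧
      x2 ∈ gZ G a2 ∧ x2 ∉ gZ G β ∧ x3 ∈ gZ G a3 ∧ x3 ∉ gZ G β ∧ d = x2 * x3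

/-- `V_β` has order eight -/
def E8 (G : Type*) [Group G] {V : Type*} [MulAction G V] (Γ : SimpleGraph V) : Prop :=
  ∀ (β γ : V) (d : G), B G β → Γ.Adj β γ → Fm G Γ β γ d → d ∈ gZ G γ

theorem Fm.mV {β γ : V} {d : G} (f : Fm G Γ β γ d) : d ∈ 𝐕 β := by
  obtain ⟨a2, a3, x2, x3, h2, h3, -, -, -, m2, -, m3, -, rfl⟩ := f
  exact mul_mem (le_gV h2 m2) (le_gV h3 m3)

namespace OD

variable {b : ℕ} {M : ℤ} (h : OD G Γ b M)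
include h

theorem fm_smul {β γ β' γ' : V} {d g : G} (f : Fm G Γ β γ d) (e1 : g • β = β') (e2 : g • γ = γ') :
    Fm G Γ β' γ' (g * d * g⁻¹) := by
  obtain ⟨a2, a3, x2, x3, h2, h3, n2, n3, n4, m2, k2, m3, k3, rfl⟩ := f
  subst e1 e2
  exact ⟨g • a2, g • a3, g * x2 * g⁻¹, g * x3 * g⁻¹, h.smul g h2, h.smul g h3,
    fun e => n2 (smul_left_cancel g e), fun e => n3 (smul_left_cancel g e),
    fun e => n4 (smul_left_cancel g e), cZ rfl m2, fun e => k2 (cZ' rfl e), cZ rfl m3,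
    fun e => k3 (cZ' rfl e), by group⟩

theorem fm_not {β γ : V} {d : G} (hB : B G β) (f : Fm G Γ β γ d) : d ∉ 𝐙 β := fun hd => by
  obtain ⟨a2, a3, x2, x3, h2, h3, -, -, n4, m2, -, m3, k3, rfl⟩ := f
  have := mul_mem (inv_mem m2) (h.ZB_le h2.symm hB hd)
  rw [inv_mul_cancel_left] at this
  exact k3 (h.F1 h2 h3 n4 hB this m3)

theorem fm_mul {β γ : V} {d d' : G} (hB : B G β) (hγ : Γ.Adj β γ) (f : Fm G Γ β γ d)
    (f' : Fm G Γ β γ d') : d * d' ∈ 𝐙 β := by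
  obtain ⟨a2, a3, x2, x3, h2, h3, n2, n3, n4, m2, k2, m3, k3, rfl⟩ := f
  have key : ∀ y2 y3, y2 ∈ 𝐙 a2 → y2 ∉ 𝐙 β → y3 ∈ 𝐙 a3 → y3 ∉ 𝐙 β →
      x2 * x3 * (y2 * y3) ∈ 𝐙 β := fun y2 y3 p2 q2 p3 q3 => by
    have := mul_mem (h.A3 h2.symm hB m2 p2 k2 q2) (h.A3 h3.symm hB m3 p3 k3 q3)
    rwa [mul_assoc, ← mul_assoc y2, (h.Vc (le_gV h2 p2) (le_gV h3 m3)).eq, mul_assoc,
      ← mul_assoc] at this
  obtain ⟨c2, c3, y2, y3, g2, g3, l2, l3, l4, p2, q2, p3, q3, rfl⟩ := f'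
  rcases (h.three hγ h2 h3 n2.symm n3.symm n4 g2).resolve_left l2 with e | e <;>
  rcases (h.three hγ h2 h3 n2.symm n3.symm n4 g3).resolve_left l3 with e' | e'
  · exact absurd (e.trans e'.symm) l4
  · exact key _ _ (e ▸ p2) q2 (e' ▸ p3) q3
  · rw [(h.Vc (le_gV g2 p2) (le_gV g3 p3)).eq]; exact key _ _ (e' ▸ p3) q3 (e ▸ p2) q2
  · exact absurd (e.trans e'.symm) l4

theorem fm_q {β γ : V} {d q : G} (hB : B G β) (hγ : Γ.Adj β γ) (f : Fm G Γ β γ d) (hq : q ∈ 𝐐 γ) :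
    d * (q * d * q⁻¹) ∈ 𝐙 β :=
  h.fm_mul hB hγ f (h.fm_smul f (h.Q_le hγ.symm hq) (gQ_le _ hq))

theorem fm_P {β β' γ : V} {d : G} (hB : B G β) (hγ : Γ.Adj β γ) (hγ' : Γ.Adj β' γ) (hne : β ≠ β')
    (f : Fm G Γ β γ d) (f' : Fm G Γ β' γ d) : d ∈ 𝐙 γ := by
  have hA := h.nB hγ.symm hB
  refine h.ZO_Z hA (h.VQa hγ f.mV) (h.V2 f.mV) fun q hq => comm_of_conj ?_
  have := h.sib hγ.symm hγ'.symm hne hB (h.fm_q hB hγ f hq) (h.fm_q (h.isB hγ'.symm hA) hγ' f' hq)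
  rw [eq_inv_of_mul_eq_one_right this, inv_eq_of_mul_eq_one_right (h.V2 f.mV)]

theorem e8_of {β γ : V} {d : G} (hB : B G β) (hγ : Γ.Adj β γ) (f : Fm G Γ β γ d) (hd : d ∈ 𝐙 γ) :
    E8 G Γ := fun β' γ' d' hB' hγ' f' => by
  obtain ⟨p, hp, e1, e2⟩ := h.exBL hB hγ
  obtain ⟨q, hq, e3, e4⟩ := h.exBL hB' hγ'
  obtain ⟨g, hg⟩ := h.tr1 0 p q hp hq
  have g1 : g • β = β' := by rw [← e1, ← e3]; exact hg 0 le_rfl (by omega)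
  have g2 : g • γ = γ' := by rw [← e2, ← e4]; exact hg 1 (by omega) (by omega)
  have := mul_mem (inv_mem (cZ g2 hd))
    (h.ZB_le hγ'.symm hB' (h.fm_mul hB' hγ' (h.fm_smul f g1 g2) f'))
  rwa [inv_mul_cancel_left] at this

theorem RR1 {p : ℤ → V} (hp : BL G Γ p) {x u : G} (hx : x ∈ 𝐙 (p (-1))) (hx' : x ∉ 𝐙 (p 0))
    (hu : u ∈ 𝐙 (p (M + 1))) (hu' : u ∉ 𝐙 (p M)) : Fm G Γ (p 0) (p 1) (x * (u * x * u⁻¹)) := by
  have := h.hM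
  have := h.b3
  have a1 := hp.adj' 0 (-1) (by omega)
  have a5 := hp.adj 0 1 rfl
  have uQ : u ∉ 𝐐 (p 0) := by
    simpa using h.R1 (hp.rev M h.ev) (a := p (M + 1)) (by simpa using hp.adj M (M + 1) rfl)
      (hp.ne' _ _ (by omega)) hu (by simpa using hu')
  have uT : u ∈ 𝐆 (p 0) ⊓ 𝐆 (p 1) := ⟨h.lZG hp _ 0 (by omega) hu, h.lZG hp _ 1 (by omega) hu⟩
  obtain ⟨b1, b2, b3⟩ := h.smul_ne a5 a1 (hp.ne _ _ (by omega)) uT uQ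
  exact ⟨_, _, _, _, a1, b1, hp.ne _ _ (by omega), b3, b2.symm, hx, hx', cZ rfl hx,
    fun e => hx' (cZ' (uT.1 : u • p 0 = p 0) e), rfl⟩

theorem RR2 {p : ℤ → V} (hp : BL G Γ p) {x u : G} (hx : x ∈ 𝐙 (p (-1))) (hx' : x ∉ 𝐙 (p 0))
    (hu : u ∈ 𝐙 (p (M + 1))) (hu' : u ∉ 𝐙 (p M)) :
    Fm G Γ (p M) (p (M - 1)) (x * (u * x * u⁻¹)) := by
  have f := h.RR1 (hp.rev M h.ev) (x := u) (u := x) (by simpa using hu) (by simpa using hu')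
    (by simpa using hx) (by simpa using hx')
  simp only [sub_zero] at f
  have e : x * (u * x * u⁻¹) = (u * (x * u * x⁻¹))⁻¹ := by
    simp [mul_assoc, inv_eq_of_mul_eq_one_right (h.mul_self hx),
      inv_eq_of_mul_eq_one_right (h.mul_self hu)]
  rwa [e, inv_eq_of_mul_eq_one_right (h.V2 f.mV)]

theorem e8 : E8 G Γ := by
  have := h.hM
  have := h.b3
  have := h.ev
  obtain ⟨p, hp, -⟩ := h.crit
  have B0 := hp.b 0 rfl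
  have BM := hp.b M h.ev
  obtain ⟨x, hx, hx'⟩ := h.exZA (hp.adj (-1) 0 rfl) B0
  obtain ⟨u, hu, hu'⟩ := h.exZA (hp.adj' (M + 1) M rfl) BM
  have f1 := h.RR1 hp hx hx' hu hu'
  have f2 := h.RR2 hp hx hx' hu hu'
  have a3 := hp.adj' M (M - 1) (by omega)
  have a5 := hp.adj 0 1 rfl
  by_cases c2 : M = 2
  · subst c2
    exact h.e8_of B0 a5 f1 (h.fm_P B0 a5 a3 (hp.ne _ _ rfl) f1 f2)
  have a2 := hp.adj' (M - 1) (M - 2) (by omega)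
  obtain ⟨c, c1, c2, c3⟩ := h.exists_third a2 a3.symm (hp.ne' M (M - 2) (by omega))
  obtain ⟨r, hr, e1, e2⟩ := h.modR hp (M - 1) c1 (by rwa [show M - 1 - 1 = M - 2 by omega])
  rw [show M - 1 + 1 = M by omega] at e2
  obtain ⟨v, hv, hv'⟩ := h.exZA (hr.adj' (M + 1) M rfl) (hr.b M h.ev)
  have g1 := h.RR1 hr (by rwa [e1 _ (by omega)]) (by rwa [e1 _ (by omega)]) hv hv'
  have g2 := h.RR2 hr (by rwa [e1 _ (by omega)]) (by rwa [e1 _ (by omega)]) hv hv'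
  rw [e1 0 (by omega), e1 1 (by omega)] at g1
  rw [e2, e1 _ le_rfl] at g2
  have Bc : B G c := e2 ▸ hr.b M h.ev
  set r1 := x * (u * x * u⁻¹)
  set r2 := x * (v * x * v⁻¹)
  have hz := h.fm_mul B0 a5 f1 g1
  by_cases z1 : r1 * r2 = 1
  · have e := eq_of_mul_eq_one (h.V2 g1.mV) z1
    exact h.e8_of BM a3 f2 (h.fm_P BM a3 c1.symm c2.symm f2 (e ▸ g2))
  by_cases c4 : M = 4
  swap
  · refine absurd (mul_mem (h.lVQ hp M _ (by omega) f2.mV) (h.VQ ?_ g2.mV))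
      (h.Fx hp 0 (M + 2) rfl (by omega) hz z1)
    have := h.dn hp c1 (M + 2)
    omega
  subst c4
  have a6 := hp.adj' 2 1 rfl
  have a7 := hp.adj 2 3 rfl
  have B2 := hp.b 2 rfl
  obtain ⟨s, hs, hsQ⟩ := h.exQ a7
  have sT := h.Q_le_T' a7 hs
  obtain ⟨b1, b2, b3⟩ := h.smul_ne a7 a6 (hp.ne _ _ rfl) sT hsQ
  have m1 := h.ZB_le a5.symm B0 hz
  have m2 : r1 * r2 ∉ 𝐙 (p 2) := fun e => z1 (h.sib a5.symm a6.symm (hp.ne _ _ rfl) B0 hz e)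
  refine h.e8_of B2 a7 (d := r1 * r2 * (s * (r1 * r2) * s⁻¹)) ⟨_, _, _, _, a6, b1, hp.ne _ _ rfl, b3,
    b2.symm, m1, m2, cZ rfl m1, fun e => m2 (cZ' (sT.1 : s • p 2 = p 2) e), rfl⟩ ?_
  have k1 := h.ZB_le a3.symm BM (h.fm_q BM a3 f2 hs)
  have k2 := h.ZB_le c1 Bc (h.fm_q Bc c1.symm g2 hs)
  have k3 : Commute r1 r2 := h.Vc f1.mV g1.mV
  have k4 := h.cZQ k1 (h.VQa c1.symm g2.mV)
  have e : r1 * r2 * (s * (r1 * r2) * s⁻¹) = r1 * (s * r1 * s⁻¹) * (r2 * (s * r2 * s⁻¹)) := by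
    calc _ = (r1 * r2) * (s * r1 * s⁻¹) * (s * r2 * s⁻¹) := by group
      _ = r2 * (r1 * (s * r1 * s⁻¹)) * (s * r2 * s⁻¹) := by rw [k3.eq]; group
      _ = _ := by rw [← k4.eq]; group
  rw [e]
  exact mul_mem k1 k2

theorem not_six (h6 : 6 ≤ M) : False := by
  have := h.hM
  have := h.ev
  obtain ⟨p, hp, -⟩ := h.crit
  have B0 := hp.b 0 rfl
  have BM := hp.b M h.ev
  obtain ⟨x, hx, hx'⟩ := h.exZA (hp.adj (-1) 0 rfl) B0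
  obtain ⟨u, hu, hu'⟩ := h.exZA (hp.adj' (M + 1) M rfl) BM
  have f1 := h.RR1 hp hx hx' hu hu'
  have f2 := h.RR2 hp hx hx' hu hu'
  have a5 := hp.adj 0 1 rfl
  have a6 := hp.adj 1 2 rfl
  have m1 := h.e8 _ _ _ B0 a5 f1
  have m2 := h.e8 _ _ _ BM (hp.adj' M (M - 1) (by omega)) f2
  have n1 := h.fm_not B0 f1
  have r1 : x * (u * x * u⁻¹) ≠ 1 := fun e => n1 (e ▸ one_mem _)
  by_cases c : x * (u * x * u⁻¹) ∈ 𝐙 (p 2)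
  · exact h.Fx hp 2 (M + 4) rfl (by omega) c r1 (h.lZQ hp _ _ (by omega) m2)
  obtain ⟨d, d1, d2, d3⟩ := h.exists_third a6 a5.symm (hp.ne _ _ rfl)
  have m3 := h.A4 a5.symm a6 d1 (hp.ne _ _ rfl) d2 d3 B0 m1 n1 c
  obtain ⟨q, hq, e1, e2⟩ := h.modL hp 1 d1 d3
  refine h.Fx hq (1 - 1) (M + 2) rfl (by omega) (e2 ▸ m3) r1 ?_
  rw [e1 _ (by omega)]
  exact h.lZQ hp _ _ (by omega) m2

end OD

namespace OD

variable {b : ℕ} (h : OD G Γ b 4)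
include h

theorem c8 {p : ℤ → V} (hp : BL G Γ p) {x u : G} (hx : x ∈ 𝐙 (p 0)) (x1 : x ≠ 1)
    (hu : u ∈ 𝐙 (p 8)) (u1 : u ≠ 1) : x * (u * x * u⁻¹) ∈ 𝐙 (p 4) ∧ x * (u * x * u⁻¹) ≠ 1 := by
  have hq := hp.shift 2 rfl
  have m1 : x ∈ 𝐙 (p 1) := h.ZB_le (hp.adj' 1 0 rfl) (hp.b 0 rfl) hx
  have m2 : x ∉ 𝐙 (p 2) := fun e => x1 (h.sib (hp.adj' 1 0 rfl) (hp.adj 1 2 rfl) (hp.ne _ _ rfl)
    (hp.b 0 rfl) hx e)
  have m3 : u ∈ 𝐙 (p 7) := h.ZB_le (hp.adj 7 8 rfl) (hp.b 8 rfl) hu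
  have m4 : u ∉ 𝐙 (p 6) := fun e => u1 (h.sib (hp.adj 7 8 rfl) (hp.adj' 7 6 rfl) (hp.ne' _ _ rfl)
    (hp.b 8 rfl) hu e)
  have f1 : Fm G Γ (p 2) (p 3) _ := h.RR1 hq m1 m2 m3 m4
  have f2 : Fm G Γ (p 6) (p 5) _ := h.RR2 hq m1 m2 m3 m4
  exact ⟨h.F1 (hp.adj' 4 3 rfl) (hp.adj 4 5 rfl) (hp.ne _ _ rfl) (hp.b 4 rfl)
    (h.e8 _ _ _ (hp.b 2 rfl) (hp.adj 2 3 rfl) f1) (h.e8 _ _ _ (hp.b 6 rfl) (hp.adj' 6 5 rfl) f2),
    fun e => h.fm_not (hp.b 2 rfl) f1 (e ▸ one_mem _)⟩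

theorem c10 {p : ℤ → V} (hp : BL G Γ p) {x u : G} (hx : x ∈ 𝐙 (p 0)) (x1 : x ≠ 1)
    (hu : u ∈ 𝐙 (p 10)) (u1 : u ≠ 1) : (x * u) ^ 4 ∈ 𝐙 (p 4) ∧ (x * u) ^ 4 ≠ 1 := by
  have := h.hM
  have m3 : u ∈ 𝐙 (p 9) := h.ZB_le (hp.adj 9 10 rfl) (hp.b 10 rfl) hu
  have g4 : u • p 4 = p 4 := h.lZG hp 9 4 (by omega) m3
  have g5 : u • p 5 = p 5 := h.lZG hp 9 5 (by omega) m3
  have uQ : u ∉ 𝐐 (p 4) := h.Fx (hp.rev 10 rfl) 0 6 rfl rfl hu u1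
  obtain ⟨-, b2, -⟩ := h.smul_ne (hp.adj 4 5 rfl) (hp.adj' 4 3 rfl) (hp.ne _ _ rfl) ⟨g4, g5⟩ uQ
  obtain ⟨r, hr, e1, e2⟩ := hp.glue (h.blsmul (hp.rev 8 rfl) u) 4 g4.symm (Or.inr b2.symm)
  have k := h.c8 hr (x := x) (u := u * x * u⁻¹) (by rwa [e1 0 (by omega)]) x1
    (by rw [e2 8 (by omega)]; exact cZ rfl hx) (by simpa using x1)
  rw [e1 4 le_rfl] at k
  have e : (x * u) ^ 4 = x * (u * x * u⁻¹ * x * (u * x * u⁻¹)⁻¹) := by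
    simp [pow_succ, mul_assoc, inv_eq_of_mul_eq_one_right (h.mul_self hx),
      inv_eq_of_mul_eq_one_right (h.mul_self hu)]
  rwa [e]

theorem not_four : False := by
  obtain ⟨p, hp, -⟩ := h.crit
  obtain ⟨x, hx, x1⟩ := h.exZ (p 0)
  obtain ⟨u, hu, u1⟩ := h.exZ (p 10)
  obtain ⟨k1, k2⟩ := h.c10 hp hx x1 hu u1
  obtain ⟨k3, -⟩ := h.c10 (hp.rev 10 rfl) (x := u) (u := x) hu u1 hx x1
  have e : u * x = (x * u)⁻¹ := by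
    rw [mul_inv_rev, inv_eq_of_mul_eq_one_right (h.mul_self hx),
      inv_eq_of_mul_eq_one_right (h.mul_self hu)]
  rw [e, inv_pow, inv_mem_iff] at k3
  exact k2 (h.sib (hp.adj' 5 4 rfl) (hp.adj 5 6 rfl) (hp.ne _ _ rfl) (hp.b 4 rfl) k1 k3)

end OD

theorem OD.eq_two {b : ℕ} {M : ℤ} (h : OD G Γ b M) : M = 2 := by
  have := h.hM
  have := h.b3
  have := h.ev
  by_contra hn
  by_cases c : M = 4
  · subst c; exact h.not_four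
  · exact h.not_six (by omega)

end Lead.Gam
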