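import Cfsg.Agent.Lead.St9
import Cfsg.Agent.S0414
/-! Rank 3 groups and the automorphism group of the Higman–Sims graph. -/
set_option autoImplicit false
namespace Lead.St
open Finset Cfsg H27 MulAction Equiv SimpleGraph
open scoped Pointwise

theorem rank3 {G Ω : Type*} [Group G] [Finite G] [MulAction G Ω] [Fintype Ω] [IsPretransitive G Ω] (a b c : Ω)
    {k l : ℕ} (hb : (orbit (stabilizer G a) b).ncard = k) (hc : (orbit (stabilizer G a) c).ncard = l) (hk : k ≠ 1)
    (hl : l ≠ 1) (hkl : k ≠ l) (hn : Fintype.card Ω = 1 + k + l) :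
    ∃ (Γ : SimpleGraph Ω) (lam mu : ℕ), (∀ (g : G) x y, Γ.Adj (g • x) (g • y) ↔ Γ.Adj x y) ∧
      (∀ y, Γ.Adj a y ↔ y ∈ orbit (stabilizer G a) b) ∧
      ∀ [DecidableRel Γ.Adj], Γ.IsSRGWith (1 + k + l) k lam mu := by
  have na : ∀ y, (orbit (stabilizer G a) y).ncard ≠ 1 → a ∉ orbit (stabilizer G a) y := fun y h1 h2 => h1 (by
    rw [← orbit_eq_iff.2 h2, Set.ncard_eq_one]
    exact ⟨a, Set.eq_singleton_iff_unique_mem.2 ⟨mem_orbit_self _, by rintro _ ⟨g, rfl⟩; exact g.2⟩⟩)
  have dj : Disjoint (orbit (stabilizer G a) b) (orbit (stabilizer G a) c) := Set.disjoint_left.2 fun y h1 h2 =>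
    hkl (by rw [← hb, ← hc, ← orbit_eq_iff.2 h1, ← orbit_eq_iff.2 h2])
  have tri : ∀ y, y = a ∨ y ∈ orbit (stabilizer G a) b ∨ y ∈ orbit (stabilizer G a) c := fun y => by
    have : insert a (orbit (stabilizer G a) b ∪ orbit (stabilizer G a) c) = Set.univ :=
      Set.eq_of_subset_of_ncard_le (Set.subset_univ _) (by
        rw [Set.ncard_univ, Nat.card_eq_fintype_card, hn, Set.ncard_insert_of_notMem
          (fun h => h.elim (na b (hb ▸ hk)) (na c (hc ▸ hl))), Set.ncard_union_eq dj, hb, hc]; omega)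
    exact this.ge (Set.mem_univ y)
  obtain ⟨t, t1, t2⟩ : ∃ t : G, t • a = b ∧ t • b = a := by
    obtain ⟨h, hh⟩ := exists_smul_eq G b a
    have st : ∀ x y : Ω, stabilizer G x ⊓ stabilizer G y = stabilizer G (x, y) := fun x y => by ext g; simp
    have e : (orbit (stabilizer G a) (h • a)).ncard = k := by
      have e1 := card_eq_orbit_mul (stabilizer G a) (h • a)
      have e2 := card_eq_orbit_mul (stabilizer G a) b
      rw [inf_comm, st, show (h • a, a) = h • (a, b) by simp [hh], stabilizer_smul_eq_stabilizer_map_conj,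
        Subgroup.card_map_of_injective (MulEquiv.injective _), ← st, e2, hb] at e1
      exact (Nat.eq_of_mul_eq_mul_right Nat.card_pos e1).symm
    rcases tri (h • a) with h1 | ⟨s, h1⟩ | h1
    · exact absurd (h1.symm ▸ mem_orbit_self _) (na _ (e ▸ hk))
    · refine ⟨h⁻¹ * s, by rw [mul_smul, show (s : G) • a = a from s.2, inv_smul_eq_iff, hh], ?_⟩
      rw [mul_smul, show (s : G) • b = h • a from h1, inv_smul_smul]
    · exact absurd (by rw [← e, ← hc, orbit_eq_iff.2 h1]) hkl
  let Γ : SimpleGraph Ω :=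
    { Adj := fun x y => ∃ g : G, g • a = x ∧ g • b = y
      symm := ⟨by rintro _ _ ⟨g, rfl, rfl⟩; exact ⟨g * t, by rw [mul_smul, t1], by rw [mul_smul, t2]⟩⟩
      loopless := ⟨by
        rintro _ ⟨g, rfl, h⟩
        exact na b (hb ▸ hk) (smul_left_cancel g h ▸ mem_orbit_self _)⟩ }
  have inv : ∀ (g : G) x y, Γ.Adj (g • x) (g • y) ↔ Γ.Adj x y := fun g x y =>
    ⟨fun ⟨h, h1, h2⟩ => ⟨g⁻¹ * h, by rw [mul_smul, h1, inv_smul_smul], by rw [mul_smul, h2, inv_smul_smul]⟩,
     fun ⟨h, h1, h2⟩ => ⟨g * h, by rw [mul_smul, h1], by rw [mul_smul, h2]⟩⟩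
  have ad : ∀ y, Γ.Adj a y ↔ y ∈ orbit (stabilizer G a) b := fun y =>
    ⟨fun ⟨g, h1, h2⟩ => ⟨⟨g, h1⟩, h2⟩, fun ⟨g, h⟩ => ⟨g, g.2, h⟩⟩
  refine ⟨Γ, Nat.card (Γ.commonNeighbors a b), Nat.card (Γ.commonNeighbors a c), inv, ad, ?_⟩
  intro _
  have cn : ∀ (g : G) x y, Fintype.card (Γ.commonNeighbors (g • x) (g • y)) = Nat.card (Γ.commonNeighbors x y) :=
    fun g x y => by
      rw [← Nat.card_eq_fintype_card]
      exact (Nat.card_congr (Equiv.subtypeEquiv (toPerm g) fun z => by simp [mem_commonNeighbors, inv])).symm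
  refine ⟨hn, fun x => ?_, ?_, fun x y hxy h => ?_⟩
  · obtain ⟨g, rfl⟩ := exists_smul_eq G a x
    rw [← card_neighborSet_eq_degree, ← Nat.card_eq_fintype_card, ← hb, ← Nat.card_coe_set_eq]
    exact (Nat.card_congr (Equiv.subtypeEquiv (toPerm g) fun z => by simp [inv, ad])).symm
  · rintro _ _ ⟨g, rfl, rfl⟩; exact cn g a b
  · obtain ⟨g, rfl⟩ := exists_smul_eq G a x
    obtain ⟨y, rfl⟩ := exists_eq_smul g y
    rw [inv, ad] at h
    obtain ⟨s, rfl⟩ := ((tri y).resolve_left fun e => hxy (by rw [e])).resolve_left h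
    have := cn (g * s) a c
    rwa [mul_smul, mul_smul, show (s : G) • a = a from s.2] at this

theorem trace_zero {V : Type*} [Fintype V] [DecidableEq V] {p : ℕ} [Fact p.Prime] (N : V → Finset V)
    (hs : ∀ x y, x ∈ N y ↔ y ∈ N x) (hr : ∀ x, x ∈ N x) (h : ∀ x y, p ∣ (N x ∩ N y).card) : p ∣ Fintype.card V := by
  let M : Matrix V V (ZMod p) := fun x y => if y ∈ N x then 1 else 0
  have : IsNilpotent M := ⟨2, by
    ext x y
    rw [sq, Matrix.mul_apply, sum_congr rfl (g := fun z => if z ∈ N x ∩ N y then (1 : ZMod p) else 0) fun z _ => by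
      by_cases a : z ∈ N x <;> by_cases b : z ∈ N y <;> simp [M, a, b, hs y z], sum_boole]
    rw [filter_mem_eq_inter, univ_inter]
    exact (ZMod.natCast_eq_zero_iff _ _).2 (h x y)⟩
  have := (Matrix.isNilpotent_trace_of_isNilpotent this).eq_zero
  rw [Matrix.trace, sum_congr rfl (f := M.diag) (g := fun _ => (1 : ZMod p)) fun x _ => if_pos (hr x)] at this
  simpa [ZMod.natCast_eq_zero_iff] using this

theorem srg_par {V : Type*} [Fintype V] {G : SimpleGraph V} [DecidableRel G.Adj] {lam mu : ℕ}
    (hG : G.IsSRGWith 100 22 lam mu) : lam = 0 ∧ mu = 6 := by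
  classical
  have p := hG.param_eq G (by norm_num)
  have dg : ∀ x, (G.neighborFinset x).card = 22 := hG.regular
  have c1 : ∀ x y, G.Adj x y → (G.neighborFinset x ∩ G.neighborFinset y).card = lam := fun x y a =>
    (card_cn x y).trans (hG.of_adj x y a)
  have c2 : ∀ x y, x ≠ y → ¬G.Adj x y → (G.neighborFinset x ∩ G.neighborFinset y).card = mu := fun x y a b =>
    (card_cn x y).trans (hG.of_not_adj a b)
  obtain ⟨a⟩ : Nonempty V := Fintype.card_pos_iff.1 (by rw [hG.card]; norm_num)
  obtain ⟨b, hb⟩ : (G.neighborFinset a).Nonempty := card_pos.1 (by rw [dg]; norm_num)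
  have hb' := (G.mem_neighborFinset _ _).1 hb
  have l21 : lam ≤ 21 := by
    rw [← c1 a b hb']
    have : G.neighborFinset a ∩ G.neighborFinset b ⊆ (G.neighborFinset a).erase b := fun z hz => by
      simp only [mem_inter, mem_neighborFinset, mem_erase] at hz ⊢
      exact ⟨hz.2.ne', hz.1⟩
    have := card_le_card this
    rwa [card_erase_of_mem hb, dg] at this
  have : lam = 0 ∧ mu = 6 ∨ lam = 7 ∧ mu = 4 ∨ lam = 14 ∧ mu = 2 ∨ lam = 21 ∧ mu = 0 := by omega
  rcases this with h | ⟨rfl, rfl⟩ | ⟨rfl, rfl⟩ | ⟨rfl, rfl⟩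
  · exact h
  · have : Fact (Nat.Prime 3) := ⟨by norm_num⟩
    have := trace_zero (p := 3) (fun x => (G.neighborFinset x)ᶜ) (fun x y => by simp [adj_comm]) (by simp) fun x y => by
      have := card_union_add_card_inter (G.neighborFinset x) (G.neighborFinset y)
      rw [← compl_union, card_compl, hG.card]
      rw [dg, dg] at this
      by_cases e : x = y
      · subst e; rw [union_self, dg]; norm_num
      by_cases f : G.Adj x y
      · rw [c1 x y f] at this; omega
      · rw [c2 x y e f] at this; omega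
    rw [hG.card] at this; omega
  · exfalso
    obtain ⟨q, hq, hq'⟩ := exists_mem_notMem_of_card_lt_card
      (s := insert b (G.neighborFinset a ∩ G.neighborFinset b)) (t := G.neighborFinset a) (by
        rw [card_insert_of_notMem (by simp), c1 a b hb', dg]; norm_num)
    simp only [mem_insert, mem_inter, hq, true_and, not_or, mem_neighborFinset] at hq'
    have e1 := card_union_add_card_inter (G.neighborFinset a ∩ G.neighborFinset b) (G.neighborFinset a ∩ G.neighborFinset q)
    have e2 := card_le_card (show G.neighborFinset a ∩ G.neighborFinset b ∪ G.neighborFinset a ∩ G.neighborFinset q ⊆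
      G.neighborFinset a from union_subset inter_subset_left inter_subset_left)
    have e3 := card_le_card (show G.neighborFinset a ∩ G.neighborFinset b ∩ (G.neighborFinset a ∩ G.neighborFinset q) ⊆
      G.neighborFinset b ∩ G.neighborFinset q from inter_subset_inter inter_subset_right inter_subset_right)
    rw [c1 a b hb', c1 a q ((G.mem_neighborFinset _ _).1 hq)] at e1
    rw [c2 b q (Ne.symm hq'.1) hq'.2] at e3
    rw [dg] at e2
    omega
  · have : Fact (Nat.Prime 23) := ⟨by norm_num⟩
    have := trace_zero (p := 23) (fun x => insert x (G.neighborFinset x)) (fun x y => by simp [adj_comm, eq_comm])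
      (by simp) fun x y => by
      by_cases e : x = y
      · subst e; rw [inter_self, card_insert_of_notMem (by simp), dg]
      by_cases f : G.Adj x y
      · have : insert x (G.neighborFinset x) ∩ insert y (G.neighborFinset y) =
            insert x (insert y (G.neighborFinset x ∩ G.neighborFinset y)) := by
          ext z
          by_cases u : z = x <;> by_cases v : z = y <;> simp [u, v, f, f.symm, e, Ne.symm e]
        rw [this, card_insert_of_notMem (by simp [e]), card_insert_of_notMem (by simp), c1 x y f]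
      · have : insert x (G.neighborFinset x) ∩ insert y (G.neighborFinset y) =
            G.neighborFinset x ∩ G.neighborFinset y := by
          ext z
          by_cases u : z = x <;> by_cases v : z = y <;> simp [u, v, f, adj_comm, e, Ne.symm e]
        rw [this, c2 x y e f]; exact dvd_zero _
    rw [hG.card] at this; omega

/-- automorphism groups of isomorphic graphs -/
def autCongr {V W : Type*} {G : SimpleGraph V} {H : SimpleGraph W} (e : G ≃g H) : (G ≃g G) ≃* (H ≃g H) where
  toFun g := (e.symm.trans g).trans e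
  invFun g := (e.trans g).trans e.symm
  left_inv g := by ext x; simp
  right_inv g := by ext x; simp
  map_mul' g h := by ext x; simp

instance finite_aut {V : Type*} [Finite V] (G : SimpleGraph V) : Finite (G ≃g G) :=
  Finite.of_injective (fun g => (g : V → V)) DFunLike.coe_injective

theorem rank3_hom {G Ω : Type*} [Group G] [Finite G] [MulAction G Ω] [Fintype Ω] [IsPretransitive G Ω] (a b c : Ω)
    (hb : (orbit (stabilizer G a) b).ncard = 22) (hc : (orbit (stabilizer G a) c).ncard = 77)
    (hn : Fintype.card Ω = 100) : ∃ φ : G →* (HG ≃g HG), ∀ g, φ g = 1 → ∀ x : Ω, g • x = x := by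
  classical
  obtain ⟨Γ, lam, mu, h1, -, h2⟩ := rank3 a b c hb hc (by norm_num) (by norm_num) (by norm_num) hn
  obtain ⟨rfl, rfl⟩ := srg_par h2
  obtain ⟨e, -⟩ := srg_iso_HG h2 a
  let ψ : G →* (Γ ≃g Γ) := MonoidHom.mk' (fun g => ⟨toPerm g, h1 g _ _⟩) fun g h => by ext x; exact mul_smul g h x
  refine ⟨(autCongr e).toMonoidHom.comp ψ, fun g hg x => ?_⟩
  have : ψ g = 1 := (autCongr e).injective (by rw [map_one]; exact hg)
  exact DFunLike.congr_fun this x

theorem card_stab_pb {α : Type*} [Fintype α] [DecidableEq α] (B : Set (Finset α)) :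
    Nat.card (stabilizer (pointBlockGraph B ≃g pointBlockGraph B) (none : Option (α ⊕ B))) =
      Nat.card (setSystemAut B) := by
  let β : setSystemAut B → B ≃ B := fun σ =>
    { toFun := fun b => ⟨σ.1 • b.1, smul_mem_of_aut σ.2 b.2⟩
      invFun := fun b => ⟨σ.1⁻¹ • b.1, smul_mem_of_aut (σ⁻¹).2 b.2⟩
      left_inv := fun b => Subtype.ext (inv_smul_smul _ _)
      right_inv := fun b => Subtype.ext (smul_inv_smul _ _) }
  have hβ : ∀ σ b, (β σ b : Finset α) = σ.1 • b.1 := fun _ _ => rfl
  let Φ : setSystemAut B → stabilizer (pointBlockGraph B ≃g pointBlockGraph B) (none : Option (α ⊕ B)) := fun σ =>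
    ⟨⟨Equiv.optionCongr (Equiv.sumCongr σ.1 (β σ)), fun {x y} => by
      have m : ∀ (p : α) (b : Finset α), σ.1 p ∈ σ.1 • b ↔ p ∈ b := fun p b => smul_mem_smul_finset_iff σ.1
      have d : ∀ b c : Finset α, Disjoint (σ.1 • b) (σ.1 • c) ↔ Disjoint b c := fun b c => by
        rw [disjoint_iff_inter_eq_empty, disjoint_iff_inter_eq_empty, ← smul_finset_inter, smul_finset_eq_empty]
      rcases x with _ | p | b <;> rcases y with _ | q | c <;>
        simp [pointBlockGraph, SimpleGraph.fromRel_adj, pointBlockRel, hβ, m, d]⟩, rfl⟩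
  refine (Nat.card_congr (Equiv.ofBijective Φ ⟨fun σ τ e => Subtype.ext (Equiv.ext fun p => ?_), fun g => ?_⟩)).symm
  · have := DFunLike.congr_fun (congrArg Subtype.val e) (some (.inl p))
    simpa [Φ] using this
  · obtain ⟨g, g0⟩ := g
    change g none = none at g0
    have a0 : ∀ x, (pointBlockGraph B).Adj none x ↔ ∃ p, x = some (.inl p) := fun x => by
      rcases x with _ | p | b <;> simp [pointBlockGraph, SimpleGraph.fromRel_adj, pointBlockRel]
    have a1 : ∀ (p : α) (b : B), (pointBlockGraph B).Adj (some (.inl p)) (some (.inr b)) ↔ p ∈ b.1 := fun p b => by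
      simp [pointBlockGraph, SimpleGraph.fromRel_adj, pointBlockRel]
    have h1 : ∀ p, ∃ q, g (some (.inl p)) = some (.inl q) := fun p => by
      rw [← a0, ← g0, g.map_rel_iff, a0]; exact ⟨p, rfl⟩
    have h2 : ∀ b, ∃ c, g (some (.inr b)) = some (.inr c) := fun b => by
      have u : ¬(pointBlockGraph B).Adj none (g (some (.inr b))) := by rw [← g0, g.map_rel_iff, a0]; simp
      have v : g (some (.inr b)) ≠ none := by rw [← g0]; simp
      rw [a0] at u
      generalize g (some (.inr b)) = x at u v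
      rcases x with _ | p | c <;> simp at u v ⊢
    choose f hf using h1
    choose f' hf' using h2
    have fi : Function.Injective f := fun p q e => by
      have := g.injective (a₁ := some (.inl p)) (a₂ := some (.inl q)) (by rw [hf, hf, e])
      simpa using this
    let σ : Perm α := Equiv.ofBijective f (Finite.injective_iff_bijective.1 fi)
    have hσ : ∀ b : B, σ • b.1 = (f' b).1 := fun b => by
      ext q
      obtain ⟨p, rfl⟩ := σ.surjective q
      rw [← a1, show σ p = f p from rfl, ← hf, ← hf', g.map_rel_iff, a1]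
      exact smul_mem_smul_finset_iff σ
    refine ⟨⟨σ, mem_aut_of fun c hc => by rw [hσ ⟨c, hc⟩]; exact (f' _).2⟩, Subtype.ext (RelIso.ext fun x => ?_)⟩
    rcases x with _ | p | b
    · exact g0.symm
    · exact (hf p).symm
    · rw [hf']; exact congrArg (fun x => some (Sum.inr x)) (Subtype.ext (hσ b))

theorem card_aut_pb {α : Type*} [Fintype α] [DecidableEq α] (hα : Fintype.card α = 22) {B : Set (Finset α)}
    (hB : IsSteinerSystem 3 6 B) : Nat.card (pointBlockGraph B ≃g pointBlockGraph B) = 88704000 := by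
  classical
  obtain ⟨e, -⟩ := iso_HG hα hB
  have : Fintype (Option (α ⊕ B)) := Fintype.ofEquiv _ e.toEquiv.symm
  have h := srg_iso e
  rw [card_eq_orbit_mul_top (none : Option (α ⊕ B)), card_stab_pb, (Cfsg.Agent.S0414.result hα hB).1,
    Set.eq_univ_of_forall (s := orbit _ _) fun y => srg_trans h none y, Set.ncard_univ, Nat.card_eq_fintype_card, h.card]

theorem card_aut_HG : Nat.card (HG ≃g HG) = 88704000 := by
  classical
  have h := derived (derived golGC.steiner none) ⟨some 0, by decide⟩
  obtain ⟨e, -⟩ := iso_HG (by decide +kernel) h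
  rw [← Nat.card_congr (autCongr e).toEquiv, card_aut_pb (by decide +kernel) h]

end Lead.St
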