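import Cfsg.Agent.Lead.HS1
import Cfsg.Agent.H27.LCo1
/-! The Higman–Sims group on 100 minimal vectors. -/
set_option autoImplicit false
namespace Lead.St
open Finset Cfsg H27 MulAction Equiv
open scoped Pointwise
attribute [-simp] Fintype.sum_option

def YH : Set LL := {x | x ∈ mdot lV (-24) ∧ dotInt (lU' : VV) (x : VV) = 0}
theorem YH_tab {i : ℕ} (hi : i < 552) : e552 i ∈ YH ↔ (dotM 552 T552 cU' 0 0).testBit i = true :=
  (and_iff_right (tab552.mem i hi)).trans (tabL552.dot_iff (a := 0) (b := 0) coe_lU' hi (by norm_num) (by norm_num))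
theorem finite_YH : YH.Finite := (finite_mdot _ _).subset fun _ h => h.1
theorem ncard_YH : YH.ncard = 100 :=
  (tab552.ncard_eq_pop (d := 10) (fun _ h => h.1) (by norm_num) fun _ => YH_tab).trans (by decide +kernel)
theorem smul_YH {g : CC} (h : g ∈ CHS) {x : LL} (hx : x ∈ YH) : g • x ∈ YH :=
  ⟨smul_mem_mdot' h.1 hx.1, by rw [← show g • lU' = lU' from h.2, co_dot]; exact hx.2⟩
theorem lU_YH : lU ∈ YH := ⟨lU_mem, by decide +kernel⟩
instance finite_CHS : Finite CHS := finite_inf_left _ _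
theorem orbit_YH : orbit CHS lU = YH :=
  orbit_eq_of_card _ _ _ finite_YH (fun _ h => smul_YH h lU_YH) (by rw [ncard_YH, card_CHS_inf, card_CHS])

abbrev SH : Subgroup CC := CHS ⊓ stabilizer CC lU
def Y1 : Set LL := {y | y ∈ YH ∧ dotInt (lU : VV) (y : VV) = 8}
def Y2 : Set LL := {y | y ∈ YH ∧ y ≠ lU ∧ dotInt (lU : VV) (y : VV) ≠ 8}
theorem ncard_Y1 : Y1.ncard = 22 :=
  (tab552.ncard_eq_pop (d := 10) (x := Nat.land (dotM 552 T552 cU' 0 0) (dotM 552 T552 cU 8 0)) (fun _ h => h.1.1)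
    (by norm_num) fun i hi => by
      rw [Nat.land_eq, Nat.testBit_and, Bool.and_eq_true, ← YH_tab hi,
        ← tabL552.dot_iff coe_lU hi (by norm_num) (by norm_num)]
      rfl).trans (by decide +kernel)
theorem ncard_Y2 : Y2.ncard = 77 := by
  have e : YH = insert lU (Y1 ∪ Y2) := by
    ext y
    refine ⟨fun h => ?_, ?_⟩
    · by_cases a : y = lU
      · exact Or.inl a
      by_cases b : dotInt (lU : VV) (y : VV) = 8
      exacts [Or.inr (Or.inl ⟨h, b⟩), Or.inr (Or.inr ⟨h, a, b⟩)]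
    · rintro (rfl | h | h)
      exacts [lU_YH, h.1, h.1]
  have f1 : Y1.Finite := finite_YH.subset fun _ h => h.1
  have f2 : Y2.Finite := finite_YH.subset fun _ h => h.1
  have := ncard_YH
  rw [e, Set.ncard_insert_of_notMem (fun h => h.elim (fun h => absurd h.2 (by decide +kernel)) fun h => h.2.1 rfl)
    (f1.union f2), Set.ncard_union_eq (Set.disjoint_left.2 fun _ a b => b.2.2 a.2) f1 f2, ncard_Y1] at this
  omega
theorem dot_SH {g : CC} (h : g ∈ SH) (y : LL) : dotInt (lU : VV) (g • y : LL) = dotInt (lU : VV) (y : VV) := by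
  conv_lhs => rw [← show g • lU = lU from h.2, co_dot]

def ptv : LL := lZ - l4 (some 1) 4 (Or.inl rfl)
theorem ptv_mem : ptv ∈ Y1 := ⟨⟨⟨by decide +kernel, by decide +kernel⟩, by decide +kernel⟩, by decide +kernel⟩
theorem orbit_Y1 : orbit SH ptv = Y1 := by
  refine orbit_eq_of_card _ _ _ (finite_YH.subset fun _ h => h.1)
    (fun g h => ⟨smul_YH h.1 ptv_mem.1, (dot_SH h _).trans ptv_mem.2⟩) ?_
  have : SH ⊓ stabilizer CC ptv ≤ H21.map pm := by
    rintro g ⟨h1, h2⟩
    obtain ⟨σ, a, rfl⟩ : g ∈ H22.map pm := CHS_inf ▸ h1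
    exact ⟨σ, ⟨a, stab_pt_of_fix (show pm σ • ptv = ptv from h2) 3 (by decide +kernel)⟩, rfl⟩
  have := Subgroup.card_le_of_le this
  rw [card_map_pm, card_H21] at this
  rw [ncard_Y1, card_CHS_inf]; omega

def blv (o : GC) : LL := ⟨fun i => 2 * H27.ind o i, (isL_two o.2).mem⟩
theorem dot_blv (x : VV) (o : GC) : dotInt x (blv o) = 2 * ∑ i ∈ (o : Finset GolayPt), x i := by
  simp [dotInt, blv, H27.ind, mul_sum, mul_comm]
theorem exists_orbit_Y2 : ∃ y, orbit SH y = Y2 := by
  let S : Finset GolayPt := {none, some 0}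
  have mem : ∀ o : GC, o.1.card = 8 → S ⊆ o → blv o ∈ Y2 := fun o h8 hS => by
    have h1 : none ∈ o.1 := hS (by decide)
    have h2 : some 0 ∈ o.1 := hS (by decide)
    have d : ∀ x : VV, (∀ i ∉ S, x i = 0) → dotInt x (blv o) = 2 * (x none + x (some 0)) := fun x hx => by
      rw [dot_blv, ← sum_subset hS fun i _ => hx i, sum_pair (by decide)]
    refine ⟨⟨⟨?_, ?_⟩, ?_⟩, fun e => ?_, ?_⟩
    · rw [sqNorm_eq_dot, dot_blv, sum_congr rfl (g := fun _ => (2 : ℤ)) fun i hi => by simp [blv, ind_mem hi]]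
      simp [h8]
    · rw [dot_blv, sum_congr rfl (g := fun i => -1 + if i = none then (-4 : ℤ) else 0) fun i _ =>
        (by decide +kernel : ∀ i, (lV : VV) i = -1 + if i = none then (-4 : ℤ) else 0) i, sum_add_distrib, sum_ite_eq', if_pos h1]
      simp [h8]
    · rw [d _ (by decide +kernel)]; decide +kernel
    · have := congrFun (congrArg Subtype.val e) none
      simp only [blv, ind_mem h1] at this
      exact absurd this (by decide +kernel)
    · rw [d _ (by decide +kernel)]; decide +kernel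
  obtain ⟨o, ⟨ho, hS⟩, -⟩ := golGC.steiner.2 {none, some 0, some 1, some 2, some 3} (by decide)
  have hS' : S ⊆ o := Subset.trans (by decide) hS
  refine ⟨blv ⟨o, ho.1⟩, Set.eq_of_subset_of_ncard_le ?_ ?_ (finite_YH.subset fun _ h => h.1)⟩
  · rintro _ ⟨g, rfl⟩
    have m := mem ⟨o, ho.1⟩ ho.2 hS'
    exact ⟨smul_YH g.2.1 m.1, fun e => m.2.1 (smul_left_cancel (g : CC) (e.trans g.2.2.symm)),
      (dot_SH g.2 _).trans_ne m.2.2⟩
  · have c := lam_5_8 card_pt golGC.steiner S (by decide)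
    rw [show tb [759, 253, 77, 21, 5] S.card = 77 by decide, N] at c
    rw [ncard_Y2, show 77 = (NF {o | o ∈ GC ∧ o.card = 8} S ∅).card by omega, ← Set.ncard_coe_finset]
    classical
    refine Set.ncard_le_ncard_of_injOn (fun c => if h : c ∈ GC then blv ⟨c, h⟩ else 0) (fun c hc => ?_)
      (fun c hc c' hc' e => ?_) (by
        have := finite_inf_left CHS (stabilizer CC lU)
        exact Set.finite_range _)
    · rw [mem_coe, mem_NF] at hc
      obtain ⟨s, hs, hs3⟩ := exists_subset_card_eq (show 3 ≤ (c \ S).card by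
        rw [card_sdiff_of_subset hc.2.1, hc.1.2]; decide)
      obtain ⟨x, y, z, n1, n2, n3, rfl⟩ := card_eq_three.1 hs3
      simp only [insert_subset_iff, singleton_subset_iff, mem_sdiff, S, mem_insert, mem_singleton, not_or] at hs
      obtain ⟨σ, hσ⟩ := exists_smul_list (l := [none, some 0, some 1, some 2, some 3]) (l' := [none, some 0, x, y, z])
        (by decide) (by simp [n1, n2, n3, Ne.symm hs.1.2.1, Ne.symm hs.1.2.2, Ne.symm hs.2.1.2.1, Ne.symm hs.2.1.2.2,
          Ne.symm hs.2.2.2.1, Ne.symm hs.2.2.2.2]) rfl (by simp)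
      simp only [List.map_cons, List.map_nil, List.cons.injEq, and_true] at hσ
      have e : σ • o = c := octad_eq_of_five ((mm_smul_octads σ).2 ho) hc.1 (by
        have := card_le_card (subset_inter (smul_finset_subset_smul_finset (a := σ) hS) (show _ ⊆ c by
          simp only [smul_finset_insert, smul_finset_singleton, hσ, insert_subset_iff, singleton_subset_iff]
          exact ⟨hc.2.1 (by decide), hc.2.1 (by decide), hs.1.1, hs.2.1.1, hs.2.2.1⟩))
        rwa [card_smul_finset] at this)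
      refine ⟨⟨pm σ, CHS_inf.ge ⟨σ, ⟨hσ.1, hσ.2.1⟩, rfl⟩⟩, ?_⟩
      rw [dif_pos hc.1.1]
      refine Subtype.ext (funext fun i => ?_)
      exact (pm_apply _ _ _).trans (by simp only [blv, ← e, ind_smul])
    · rw [mem_coe, mem_NF] at hc hc'
      simp only [dif_pos hc.1.1, dif_pos hc'.1.1] at e
      exact H27.ind_inj fun i => by have := congrFun (congrArg Subtype.val e) i; simp only [blv] at this; omega

/-- the Higman–Sims group acts on the Higman–Sims graph -/
theorem exists_hom_CHS : ∃ φ : CHS →* (HG ≃g HG), Function.Injective φ := by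
  obtain ⟨y, hy⟩ := exists_orbit_Y2
  have f : Finite (orbit CHS lU) := (orbit_YH ▸ finite_YH : (orbit CHS lU).Finite)
  have := Fintype.ofFinite (orbit CHS lU)
  have key : ∀ z : orbit CHS lU, (orbit (stabilizer CHS (⟨lU, mem_orbit_self _⟩ : orbit CHS lU)) z).ncard =
      (orbit SH (z : LL)).ncard := fun z => by
    rw [← Set.ncard_image_of_injective _ Subtype.val_injective]
    congr 1; ext w; constructor
    · rintro ⟨_, ⟨g, rfl⟩, rfl⟩; exact ⟨⟨g, g.1.2, congrArg Subtype.val g.2⟩, rfl⟩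
    · rintro ⟨g, rfl⟩; exact ⟨_, ⟨⟨⟨g, g.2.1⟩, Subtype.ext g.2.2⟩, rfl⟩, rfl⟩
  obtain ⟨φ, hφ⟩ := rank3_hom (G := CHS) (⟨lU, mem_orbit_self _⟩ : orbit CHS lU) ⟨ptv, orbit_YH.ge ptv_mem.1⟩
    ⟨y, orbit_YH.ge (hy.le (mem_orbit_self _)).1⟩ (by rw [key, orbit_Y1, ncard_Y1]) (by rw [key, hy, ncard_Y2])
    (by rw [← Nat.card_eq_fintype_card, Nat.card_coe_set_eq, orbit_YH, ncard_YH])
  refine ⟨φ, (MonoidHom.ker_eq_bot_iff φ).1 ((simple_CHS.eq_bot_or_eq_top_of_normal _ inferInstance).resolve_right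
    fun h => ?_)⟩
  obtain ⟨g, hg⟩ := orbit_YH.ge ptv_mem.1
  have := congrArg Subtype.val (hφ g (h.ge (Subgroup.mem_top g)) ⟨lU, mem_orbit_self _⟩)
  exact absurd ((hg.symm.trans this) ▸ ptv_mem.2) (by decide +kernel)

theorem iso_CHS {G : Type*} [Group G] (ψ : G →* (HG ≃g HG)) (hψ : Function.Injective ψ) (hc : Nat.card G = 44352000) :
    Nonempty (G ≃* CHS) := by
  obtain ⟨φ, hφ⟩ := exists_hom_CHS
  have c1 : Nat.card ψ.range = 44352000 := by rw [← Nat.card_congr (MonoidHom.ofInjective hψ).toEquiv, hc]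
  have c2 : Nat.card φ.range = 44352000 := by rw [← Nat.card_congr (MonoidHom.ofInjective hφ).toEquiv, card_CHS]
  have i1 : ψ.range.index = 2 := by
    have := ψ.range.card_mul_index
    rw [c1, card_aut_HG] at this; omega
  have := Subgroup.normal_of_index_eq_two i1
  have := simple_CHS
  have := (MonoidHom.ofInjective hφ).symm.isSimpleGroup
  have e : φ.range ≤ ψ.range := by
    rcases (Subgroup.normal_subgroupOf (H := φ.range) (N := ψ.range)).eq_bot_or_eq_top with h | h
    · have := Subgroup.relIndex_dvd_index_of_normal ψ.range φ.range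
      rw [Subgroup.relIndex, h, Subgroup.index_bot, c2, i1] at this
      norm_num at this
    · exact Subgroup.subgroupOf_eq_top.1 h
  exact ⟨(MonoidHom.ofInjective hψ).trans ((MulEquiv.subgroupCongr
    (Subgroup.eq_of_le_of_card_ge e (by rw [c1, c2])).symm).trans (MonoidHom.ofInjective hφ).symm)⟩

abbrev XH (v w : LL) : Set LL :=
  {x | sqNorm (x : VV) = 32 ∧ dotInt (v : VV) (x : VV) = 24 ∧ dotInt (w : VV) (x : VV) = -24}
theorem hs_std {v w : LL} (hv : sqNorm (v : VV) = 48) (hw : sqNorm (w : VV) = 48) (h : dotInt (v : VV) w = -32) :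
    ∃ k : CC, (∀ y, k • y ∈ XH v w ↔ y ∈ YH) ∧ ∀ s ∈ CHS, (k * s * k⁻¹) • v = v ∧ (k * s * k⁻¹) • w = w := by
  obtain ⟨g, rfl, rfl⟩ := exists_smul_VV hv hw h
  refine ⟨g * neg1, fun y => ?_, fun s hs => ?_⟩
  · simp only [XH, YH, mdot, Set.mem_ofPred_eq, mul_smul, co_norm, co_dot, neg1_smul, lV', AddSubgroup.coe_neg,
      AddSubgroup.coe_add, dot_neg, neg_dot, add_dot, sqNorm_neg]
    omega
  · have a : s ∈ C3 ⊓ stabilizer CC lV' := C3_inf_lV'.ge hs
    have n : neg1⁻¹ = neg1 := inv_eq_of_mul_eq_one_right neg1_sq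
    simp only [mul_inv_rev, mul_smul, inv_smul_smul, n, neg1_smul, smul_neg, neg_neg, show s • lV = lV from a.1,
      show s • lV' = lV' from a.2, and_self]

def wH : List ℕ := [0, 0, 0, 0, 0, 0, 1, 1, 0, 0, 0, 0, 0, 0, 1, 1, 0, 0, 0, 0, 0, 0, 1, 1]
theorem exists_fpf : ∃ t ∈ CHS, orderOf t = 2 ∧ ∀ y ∈ YH, t • y ≠ y := by
  have a := mH_acts.word wH
  have m := wordG_prod_mem mH_mem wH
  have f : ∀ y ∈ YH, (wordG (mH.map cm) wH).prod • y ≠ y := fun y hy => by
    obtain ⟨i, hi, rfl⟩ := tab552.surj y hy.1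
    rw [YH_tab hi] at hy
    have e : Nat.land (movedL 10 552 (wordN mHN wH)) (dotM 552 T552 cU' 0 0) = dotM 552 T552 cU' 0 0 := by
      decide +kernel
    rw [← e, Nat.land_eq, Nat.testBit_and, Bool.and_eq_true] at hy
    rw [a.prod_act hi]
    intro h
    have := (testBit_movedL (K := 10) (by norm_num) (fun _ h => a.ok h) hi).2
      (tab552.inj (fnL_lt (fun _ h => a.ok h) hi) hi h)
    rw [hy.1] at this; cases this
  refine ⟨_, m, orderOf_eq_prime ?_ (fun e => f _ lU_YH (by rw [e, one_smul])), f⟩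
  refine C3_faith552 _ (pow_mem m.1 2) fun i hi => ?_
  have := (mH_acts.word (wH ++ wH)).prod_smul_eq (K := 10) (mH_acts.word []) (by decide +kernel) hi
  simpa [wordG, sq] using this

end Lead.St
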