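import Cfsg.Agent.H29.U0

set_option autoImplicit false
set_option maxRecDepth 100000
open Cfsg Cfsg.Spor H7.J4 H29 H29.J4m H29.U Subgroup
open scoped Pointwise

namespace LeadHom

section
variable {A B : Type*} [Group A] [Group B]

theorem gmap (f : A →* B) (l : List A) (e : Ex) : f (e.g l) = e.g (l.map f) := by
  induction e with
  | v i => simp only [Ex.g]; rw [← f.map_one, List.getD_map]
  | m a b ha hb => simp only [Ex.g, map_mul, ha, hb]
  | p a k ha => simp only [Ex.g, map_pow, ha]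

theorem gmem (H : Subgroup A) (l : List A) (h : ∀ a ∈ l, a ∈ H) (e : Ex) : e.g l ∈ H := by
  induction e with
  | v i =>
    simp only [Ex.g, List.getD_eq_getElem?_getD]
    cases h' : l[i]? with
    | none => exact H.one_mem
    | some a => exact h a (List.mem_of_getElem? h')
  | m a b ha hb => exact H.mul_mem ha hb
  | p a k ha => exact H.pow_mem ha k

theorem idx {l : List A} {a : A} (h : a ∈ l) : ∃ j < l.length, a = l.getD j 1 := by
  obtain ⟨j, hj, rfl⟩ := List.getElem_of_mem h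
  exact ⟨j, hj, (List.getD_eq_getElem _ _ hj).symm⟩

theorem ea (l : List A) (s2 : ∀ a ∈ l, a * a = 1) (cm : ∀ a ∈ l, ∀ b ∈ l, a * b = b * a) :
    ∃ S : Finset A, S.card ≤ 2 ^ l.length ∧ ∀ g ∈ closure {a | a ∈ l}, g ∈ S := by
  classical
  induction l with
  | nil => exact ⟨{1}, by simp, by simp⟩
  | cons a l ih =>
    obtain ⟨S, h1, h2⟩ := ih (fun b hb => s2 b (List.mem_cons_of_mem _ hb))
      fun b hb c hc => cm b (List.mem_cons_of_mem _ hb) c (List.mem_cons_of_mem _ hc)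
    have aa := s2 a List.mem_cons_self
    have hc : closure {b | b ∈ l} ≤ centralizer {a} := (closure_le _).2 fun b hb =>
      mem_centralizer_singleton_iff.2 (cm b (List.mem_cons_of_mem _ hb) a List.mem_cons_self)
    obtain ⟨E, hE⟩ := ext_two (H := closure {b | b ∈ l}) aa
      fun y hy => (mem_centralizer_singleton_iff.1 (hc hy)).symm
    refine ⟨S ∪ S.image (· * a), ?_, fun g hg => ?_⟩
    · have := Finset.card_union_le S (S.image (· * a))
      have := Finset.card_image_le (s := S) (f := (· * a))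
      rw [List.length_cons, pow_succ]; omega
    · have : closure {b | b ∈ a :: l} ≤ E := (closure_le _).2 fun b hb => (hE b).2 (by
        rcases List.mem_cons.1 hb with rfl | hb
        · exact Or.inl (aa ▸ one_mem _)
        · exact Or.inr (subset_closure hb))
      rcases (hE g).1 (this hg) with h | h
      · exact Finset.mem_union_right _ (Finset.mem_image.2 ⟨_, h2 _ h, by rw [mul_assoc, aa, mul_one]⟩)
      · exact Finset.mem_union_left _ (h2 _ h)

structure Hp (x y e : A) : Prop where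
  s2 : ∀ j < 11, (eK.map (Ex.g [x, y, y⁻¹, e])).getD j 1 * (eK.map (Ex.g [x, y, y⁻¹, e])).getD j 1 = 1
  cm : ∀ j < 11, ∀ k < 11, (eK.map (Ex.g [x, y, y⁻¹, e])).getD j 1 * (eK.map (Ex.g [x, y, y⁻¹, e])).getD k 1 =
    (eK.map (Ex.g [x, y, y⁻¹, e])).getD k 1 * (eK.map (Ex.g [x, y, y⁻¹, e])).getD j 1
  hx : ∀ j < 11, x * (eK.map (Ex.g [x, y, y⁻¹, e])).getD j 1 * x⁻¹ =
    (nx.getD j (.v 0)).g (eK.map (Ex.g [x, y, y⁻¹, e]))
  hy : ∀ j < 11, y * (eK.map (Ex.g [x, y, y⁻¹, e])).getD j 1 * y⁻¹ =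
    (ny.getD j (.v 0)).g (eK.map (Ex.g [x, y, y⁻¹, e]))

theorem lmap (f : A →* B) (x y e : A) :
    (eK.map (Ex.g [x, y, y⁻¹, e])).map f = eK.map (Ex.g [f x, f y, (f y)⁻¹, f e]) := by
  rw [List.map_map]
  refine List.map_congr_left fun a _ => ?_
  simp only [Function.comp, gmap, List.map_cons, List.map_nil, map_inv]

theorem dmap (f : A →* B) (x y e : A) (j : ℕ) : f ((eK.map (Ex.g [x, y, y⁻¹, e])).getD j 1) =
    (eK.map (Ex.g [f x, f y, (f y)⁻¹, f e])).getD j 1 := by
  rw [← lmap, ← f.map_one, List.getD_map]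

theorem Hp.prod {x y e : A} {x' y' e' : B} (h : Hp x y e) (k : Hp x' y' e') :
    Hp (x, x') (y, y') (e, e') := by
  have ex : ∀ u v : A × B, MonoidHom.fst A B u = MonoidHom.fst A B v →
      MonoidHom.snd A B u = MonoidHom.snd A B v → u = v := fun u v a b => Prod.ext a b
  refine ⟨fun j hj => ex _ _ ?_ ?_, fun j hj i hi => ex _ _ ?_ ?_, fun j hj => ex _ _ ?_ ?_,
    fun j hj => ex _ _ ?_ ?_⟩ <;> simp only [map_mul, map_one, map_inv, dmap, gmap, lmap]
  exacts [h.s2 j hj, k.s2 j hj, h.cm j hj i hi, k.cm j hj i hi, h.hx j hj, k.hx j hj, h.hy j hj, k.hy j hj]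

theorem bound {x y e : A} (h : Hp x y e) (π : H27.MM →* A) (hx : x ∈ π.range) (hy : y ∈ π.range) :
    Finite (closure ({x, y, e} : Set A)) ∧ Nat.card (closure ({x, y, e} : Set A)) ≤ 2048 * 244823040 := by
  obtain ⟨l, hl⟩ : ∃ l, l = eK.map (Ex.g [x, y, y⁻¹, e]) := ⟨_, rfl⟩
  have len : l.length = 11 := by rw [hl]; simp [eK]
  have e0 : e ∈ l := by
    rw [hl]
    refine List.mem_map.2 ⟨_, List.mem_map.2 ⟨0, by simp, rfl⟩, ?_⟩
    simp [Ex.g]
  obtain ⟨a1, a2, a3, a4⟩ := h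
  rw [← hl] at a1 a2 a3 a4
  obtain ⟨S, c1, c2⟩ := ea l (fun a ha => by obtain ⟨j, hj, rfl⟩ := idx ha; exact a1 j (len ▸ hj))
    fun a ha b hb => by
      obtain ⟨j, hj, rfl⟩ := idx ha
      obtain ⟨i, hi, rfl⟩ := idx hb
      exact a2 j (len ▸ hj) i (len ▸ hi)
  rw [len] at c1
  let E := closure {a | a ∈ l}
  have sub : (E : Set A) ⊆ S := fun g hg => c2 g hg
  have fE : Finite (E : Set A) := (S.finite_toSet.subset sub).to_subtype
  have cE : Nat.card (E : Set A) ≤ 2048 := by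
    have := Set.ncard_le_ncard sub S.finite_toSet
    rw [Set.ncard_coe_finset] at this
    rw [Nat.card_coe_set_eq]; omega
  have nm : ∀ (g : A) (n : List Ex), (∀ j < 11, g * l.getD j 1 * g⁻¹ = (n.getD j (.v 0)).g l) →
      g ∈ normalizer (E : Set A) := fun g n hn => mem_normalizer_fintype fun u hu => by
    have : E ≤ E.comap (MulAut.conj g).toMonoidHom := (closure_le _).2 fun a ha => by
      obtain ⟨j, hj, rfl⟩ := idx ha
      change g * l.getD j 1 * g⁻¹ ∈ E
      rw [hn j (len ▸ hj)]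
      exact gmem E l (fun a ha => subset_closure ha) _
    exact this hu
  let K := π.range ⊓ normalizer (E : Set A)
  have fK : Finite π.range := Finite.of_surjective _ π.rangeRestrict_surjective
  have fK' : Finite (K : Set A) := Finite.Set.subset (π.range : Set A) fun _ h => h.1
  have cK : Nat.card (K : Set A) ≤ 244823040 := by
    rw [← H27.card_MM]
    exact (Subgroup.card_le_of_le (inf_le_left : K ≤ π.range)).trans
      (Nat.card_le_card_of_surjective _ π.rangeRestrict_surjective)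
  have le : (closure ({x, y, e} : Set A) : Set A) ⊆ (E : Set A) * (K : Set A) := by
    rw [← coe_mul_of_right_le_normalizer_left E K inf_le_right]
    refine (closure_le _).2 ?_
    rintro _ (rfl | rfl | rfl)
    · exact mem_sup_right ⟨hx, nm _ _ a3⟩
    · exact mem_sup_right ⟨hy, nm _ _ a4⟩
    · exact mem_sup_left (subset_closure e0)
  have fin : ((E : Set A) * (K : Set A)).Finite := (Set.toFinite _).mul (Set.toFinite _)
  refine ⟨(fin.subset le).to_subtype, ?_⟩
  have := fin.to_subtype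
  exact (Nat.card_mono fin le).trans (Set.natCard_mul_le.trans (Nat.mul_le_mul cE cK))

theorem inj_of (f : A →* B) (x y e : A) [Finite (closure ({x, y, e} : Set A))]
    (h : Nat.card (closure ({x, y, e} : Set A)) ≤ Nat.card (closure ({f x, f y, f e} : Set B))) :
    ∀ a ∈ closure ({x, y, e} : Set A), ∀ b ∈ closure ({x, y, e} : Set A), f a = f b → a = b := by
  have e1 : (closure ({x, y, e} : Set A)).map f = closure {f x, f y, f e} := by
    rw [MonoidHom.map_closure]; simp [Set.image_insert_eq]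
  rw [← e1] at h
  have := (f.subgroupMap_surjective (closure ({x, y, e} : Set A))).bijective_of_nat_card_le h
  intro a ha b hb hab
  exact congrArg Subtype.val (this.1 (a₁ := ⟨a, ha⟩) (a₂ := ⟨b, hb⟩) (Subtype.ext hab))

end

theorem jHp : Hp jx jy je := by
  obtain ⟨M, s, h⟩ := j4_model'
  have h4 : List.Forall₂ M.R L4 [jx, jy, jy⁻¹, je] :=
    .cons (R_getD h 0) (.cons (R_getD h 1) (.cons (R_getD h 2) (.cons (R_getD h 4) .nil)))
  have e : eK.map (Ex.c kmul kone L4) = eL := by decide +kernel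
  have hE : List.Forall₂ M.R eL (eK.map (Ex.g [jx, jy, jy⁻¹, je])) := by
    rw [← e, List.forall₂_map_left_iff, List.forall₂_map_right_iff, List.forall₂_same]
    intro a _
    rw [← s.1, ← s.2.1]; exact a.R h4
  have xx : jx⁻¹ = jx := inv_eq_of_mul_eq_one_right (s.eq h4 (.m (.v 0) (.v 0)) (.v 9) (by decide +kernel))
  have k1 : ∀ j < 11, Nat.beq ((Ex.m (.v j) (.v j)).c kmul kone eL) ((Ex.v 20).c kmul kone eL) = true := by
    decide +kernel
  have k2 : ∀ j < 11, ∀ i < 11, Nat.beq ((Ex.m (.v j) (.v i)).c kmul kone eL)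
      ((Ex.m (.v i) (.v j)).c kmul kone eL) = true := by decide +kernel
  have k3 : ∀ j < 11, Nat.beq (kmul (kmul cx (lgetD kone eL j)) cx)
      ((nx.getD j (.v 0)).c kmul kone eL) = true := by decide +kernel
  have k4 : ∀ j < 11, Nat.beq (kmul (kmul cy (lgetD kone eL j)) cY)
      ((ny.getD j (.v 0)).c kmul kone eL) = true := by decide +kernel
  refine ⟨fun j hj => (s.eq hE _ _ (k1 j hj)).trans ?_, fun j hj i hi => s.eq hE _ _ (k2 j hj i hi),
    fun j hj => ?_, fun j hj => ?_⟩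
  · exact List.getD_eq_default _ _ (by simp [eK])
  · rw [xx]
    exact M.eq_of (M.R_mul (M.R_mul (a := cx) (R_getD h 0) (R_getD hE j)) (b := cx) (R_getD h 0))
      ((nx.getD j (.v 0)).R hE) (by rw [s.1, s.2.1, s.2.2]; exact k3 j hj)
  · exact M.eq_of (M.R_mul (M.R_mul (a := cy) (R_getD h 1) (R_getD hE j)) (b := cY) (R_getD h 2))
      ((ny.getD j (.v 0)).R hE) (by rw [s.1, s.2.1, s.2.2]; exact k4 j hj)

universe u
variable {G : Type u} [Group G] [Finite G] {x y e : G}

theorem hom (h1 : x ^ 2 = 1) (h2 : y ^ 3 = 1) (h3 : (x * y) ^ 23 = 1) (h4 : (x⁻¹ * y⁻¹ * x * y) ^ 12 = 1) (h5 : (x⁻¹ * (y * x * y)⁻¹ * x * (y * x * y)) ^ 5 = 1) (h6 : (x * y * ((x * y * x * (y⁻¹)) ^ 3)) ^ 4 = 1) (h7 : ((x * y * x * y * x * (y⁻¹)) ^ 3) * ((x * y * x * (y⁻¹) * x * (y⁻¹)) ^ 3) = 1) (eg : List G) (he : eg = eK.map (Ex.g [x, y, y⁻¹, e])) (s2 : ∀ a ∈ eg, a * a = 1) (cm : ∀ a ∈ eg, ∀ b ∈ eg, a * b = b * a) (hx : ∀ j < 11, x * eg.getD j 1 * x⁻¹ = (nx.getD j (.v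 0)).g eg) (hy : ∀ j < 11, y * eg.getD j 1 * y⁻¹ = (ny.getD j (.v 0)).g eg) (hc : Nat.card (closure ({x, y, e} : Set G)) = 2048 * 244823040) : ∃ M : Model G, Md M x y e := by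
  have len : eg.length = 11 := by rw [he]; simp [eK]
  have mem : ∀ j < 11, eg.getD j 1 ∈ eg := fun j hj => by
    rw [List.getD_eq_getElem _ _ (len ▸ hj)]; exact List.getElem_mem _
  have hp : Hp x y e := by
    refine ⟨?_, ?_, ?_, ?_⟩ <;> rw [← he]
    exacts [fun j hj => s2 _ (mem j hj), fun j hj i hi => cm _ (mem j hj) _ (mem i hi), hx, hy]
  have hJ : ∀ r ∈ J4.extra, PresentedGroup.mk (coxRelators J4.edges ∪ {r | r ∈ J4.extra}) r = 1 :=
    fun r hr => PresentedGroup.one_of_mem (Or.inr hr)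
  simp only [J4.extra, List.forall_mem_cons, map_mul, map_pow, map_inv] at hJ
  obtain ⟨j1, j2, j3, j4, j5, j6, j7, -⟩ := hJ
  obtain ⟨π1, p1⟩ := H7.JD.hom (G := J4) (a := jx) (b := jy) (rels7 j1 j2 j3 j4 j5 j6 j7)
  let ε : Shrink.{0} G ≃* G := Shrink.mulEquiv
  obtain ⟨π2, p2⟩ := H7.JD.hom (G := Shrink.{0} G) (a := ε.symm x) (b := ε.symm y) (rels7
    (by simpa only [map_mul, map_pow, map_inv, map_one] using congrArg ε.symm h1)
    (by simpa only [map_mul, map_pow, map_inv, map_one] using congrArg ε.symm h2)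
    (by simpa only [map_mul, map_pow, map_inv, map_one] using congrArg ε.symm h3)
    (by simpa only [map_mul, map_pow, map_inv, map_one] using congrArg ε.symm h4)
    (by simpa only [map_mul, map_pow, map_inv, map_one] using congrArg ε.symm h5)
    (by simpa only [map_mul, map_pow, map_inv, map_one] using congrArg ε.symm h6)
    (by simpa only [map_mul, map_pow, map_inv, map_one] using congrArg ε.symm h7))
  let π : H27.MM →* J4 × G := π1.prod (ε.toMonoidHom.comp π2)
  have mx : (jx, x) ∈ π.range := ⟨_, Prod.ext ((p1 [0]).trans (by simp [H28.ev_cons, H28.ev_nil]))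
    ((congrArg ε (p2 [0])).trans (by simp [H28.ev_cons, H28.ev_nil]))⟩
  have my : (jy, y) ∈ π.range := ⟨_, Prod.ext ((p1 [1]).trans (by simp [H28.ev_cons, H28.ev_nil]))
    ((congrArg ε (p2 [1])).trans (by simp [H28.ev_cons, H28.ev_nil]))⟩
  obtain ⟨fin, bd⟩ := bound (jHp.prod hp) π mx my
  have cJ : Nat.card (closure ({jx, jy, je} : Set J4)) = 2048 * 244823040 := by
    have := (closure ({jx, jy, je} : Set J4)).card_mul_index
    rw [H7.JD.j_main.1, show Nat.card J4 = 86775571046077562880 from H7.JD.j_main.2.1.2] at this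
    exact Nat.eq_of_mul_eq_mul_right (by norm_num : 0 < 173067389) (this.trans (by norm_num))
  have i1 := inj_of (MonoidHom.fst J4 G) _ _ _ (bd.trans cJ.ge)
  have i2 := inj_of (MonoidHom.snd J4 G) _ _ _ (bd.trans hc.ge)
  obtain ⟨M, s, h⟩ := j4_model'
  let Γ := closure ({(jx, x), (jy, y), (je, e)} : Set (J4 × G))
  have gx : (jx, x) ∈ Γ := subset_closure (by simp)
  have gy : (jy, y) ∈ Γ := subset_closure (by simp)
  have ge : (je, e) ∈ Γ := subset_closure (by simp)
  refine ⟨⟨fun c g => ∃ j, M.R c j ∧ (j, g) ∈ Γ, M.one, M.mul, M.eqb, ⟨1, M.R_one, Γ.one_mem⟩, ?_, ?_⟩,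
    s, .cons ⟨jx, R_getD h 0, gx⟩ (.cons ⟨jy, R_getD h 1, gy⟩ (.cons ⟨jy⁻¹, R_getD h 2, Γ.inv_mem gy⟩
      (.cons ⟨je, R_getD h 4, ge⟩ .nil)))⟩
  · rintro a b g k ⟨j, r1, m1⟩ ⟨i, r2, m2⟩
    exact ⟨j * i, M.R_mul r1 r2, Γ.mul_mem m1 m2⟩
  · rintro a b g k ⟨j, r1, m1⟩ ⟨i, r2, m2⟩
    rw [M.eqb_iff r1 r2]
    exact ⟨fun q => congrArg Prod.snd (i1 _ m1 _ m2 q), fun q => congrArg Prod.fst (i2 _ m1 _ m2 q)⟩

end LeadHom
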