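import Mathlib

/-! A group of order `2 p ^ 3` acting on preprojective Kronecker modules. -/

set_option autoImplicit false
set_option maxHeartbeats 400000

namespace Lead.Kr
open Matrix

@[ext] structure H (F : Type) where
  a : Fin 3 → F
  e : ℤˣ

variable {F : Type} [Field F]

def sg (F : Type) [Field F] : ℤˣ →* F := (Int.castRingHom F).toMonoidHom.comp (Units.coeHom ℤ)

theorem sg_neg : sg F (-1) = -1 := by simp [sg]

instance : Group (H F) where
  mul x y := ⟨y.a + sg F y.e • x.a, x.e * y.e⟩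
  one := ⟨0, 1⟩
  inv x := ⟨-(sg F x.e • x.a), x.e⟩
  mul_assoc x y z := H.ext (by
    change z.a + sg F z.e • (y.a + sg F y.e • x.a) = z.a + sg F z.e • y.a + sg F (y.e * z.e) • x.a
    rw [smul_add, smul_smul, mul_comm, map_mul, add_assoc]) (mul_assoc _ _ _)
  one_mul x := H.ext (by change x.a + _ • 0 = _; simp) (one_mul _)
  mul_one x := H.ext (by change 0 + sg F 1 • x.a = _; simp) (mul_one _)
  inv_mul_cancel x := H.ext (by
    change x.a + sg F x.e • -(sg F x.e • x.a) = 0
    rw [smul_neg, smul_smul, ← map_mul, Int.units_mul_self]; simp) (Int.units_mul_self _)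

def eqv : H F ≃ (Fin 3 → F) × ℤˣ := ⟨fun x => (x.a, x.e), fun x => ⟨x.1, x.2⟩, fun _ => rfl, fun _ => rfl⟩

def N (m : ℕ) : (Fin 3 → F) →ₗ[F] Matrix (Fin (m + 1)) (Fin m) F where
  toFun a := of fun i j => ∑ k : Fin 3, if (i : ℕ) = j + k then a k else 0
  map_add' a b := by ext i j; simp [← Finset.sum_add_distrib, ite_add_ite]
  map_smul' c a := by ext i j; simp [Finset.mul_sum]

def blk (m : ℕ) (x : H F) : Matrix (Fin (m + 1) ⊕ Fin m) (Fin (m + 1) ⊕ Fin m) F :=
  fromBlocks 1 (N m x.a) 0 (sg F x.e • 1)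

theorem blk_mul (m : ℕ) (x y : H F) : blk m (x * y) = blk m x * blk m y := by
  change fromBlocks 1 (N m (y.a + sg F y.e • x.a)) 0 (sg F (x.e * y.e) • 1) = _
  simp [blk, fromBlocks_multiply, smul_smul, mul_comm]

theorem det_blk {m : ℕ} (hm : Even m) (x : H F) : (blk m x).det = 1 := by
  rcases Int.units_eq_one_or x.e with h | h <;> simp [blk, h, det_neg, hm, sg_neg]

theorem trace_blk {m : ℕ} (hm : (m : F) = 0) (x : H F) : (blk m x).trace = 1 := by
  simp [blk, trace, Fintype.sum_sum_type, hm]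

theorem scalar_of {m : ℕ} (h2 : (2 : F) ≠ 0) {g : Matrix (Fin (m + 1) ⊕ Fin m) (Fin (m + 1) ⊕ Fin m) F}
    (h : ∀ x, g * blk m x = blk m x * g) : ∃ r, g = scalar _ r := by
  obtain ⟨P, B, C, Q, rfl⟩ : ∃ P B C Q, g = fromBlocks P B C Q := ⟨_, _, _, _, (fromBlocks_toBlocks g).symm⟩
  have k : ∀ {a b : Type} (X : Matrix a b F), X = -X → X = 0 := fun X hX => by
    ext i j
    have : X i j = -X i j := congrFun (congrFun hX i) j
    exact (mul_eq_zero.1 (show 2 * X i j = 0 by linear_combination this)).resolve_left h2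
  have h0 := h ⟨0, -1⟩
  simp [blk, fromBlocks_multiply, sg_neg] at h0
  obtain rfl := k B h0.1.symm
  obtain rfl := k C h0.2
  have h1 : ∀ a i j, ∑ k, P i k * N m a k j = ∑ k, N m a i k * Q k j := fun a i j => by
    have := h ⟨a, 1⟩
    simp [blk, fromBlocks_multiply] at this
    exact congrFun (congrFun this i) j
  have eA : ∀ i j, N m ![(1 : F), 0, 0] i j = if i = j.castSucc then 1 else 0 := fun i j => by
    simp [N, Fin.sum_univ_three, Fin.ext_iff]
  have eB : ∀ i j, N m ![(0 : F), 1, 0] i j = if i = j.succ then 1 else 0 := fun i j => by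
    simp [N, Fin.sum_univ_three, Fin.ext_iff]
  have a1 : ∀ i j : Fin m, P i.castSucc j.castSucc = Q i j := fun i j => by
    simpa [eA] using h1 ![1, 0, 0] i.castSucc j
  have a2 : ∀ j : Fin m, P (Fin.last m) j.castSucc = 0 := fun j => by
    simpa [eA, (Fin.castSucc_ne_last _).symm] using h1 ![1, 0, 0] (Fin.last m) j
  have b1 : ∀ i j : Fin m, P i.succ j.succ = Q i j := fun i j => by
    simpa [eB] using h1 ![0, 1, 0] i.succ j
  have b2 : ∀ j : Fin m, P 0 j.succ = 0 := fun j => by
    simpa [eB, (Fin.succ_ne_zero _).symm] using h1 ![0, 1, 0] 0 j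
  have up : ∀ i j, i ≤ j → P i j = if i = j then P 0 0 else 0 := fun i => by
    induction i using Fin.induction with
    | zero => exact fun j _ => Fin.cases (by simp) (fun j => by simp [b2, (Fin.succ_ne_zero _).symm]) j
    | succ i ih =>
      intro j hj
      obtain ⟨j, rfl⟩ := Fin.exists_succ_eq.2 (hj.trans_lt' (Fin.succ_pos i)).ne'
      rw [b1, ← a1, ih _ (by simpa using hj)]; simp
  have lo : ∀ i j, j < i → P i j = 0 := fun i => by
    induction i using Fin.reverseInduction with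
    | last => exact fun j hj => by obtain ⟨j, rfl⟩ := Fin.exists_castSucc_eq.2 hj.ne; exact a2 j
    | cast i ih =>
      intro j hj
      obtain ⟨j, rfl⟩ := Fin.exists_castSucc_eq.2 (hj.trans (Fin.castSucc_lt_last i)).ne
      rw [a1, ← b1, ih _ (by simpa using hj)]
  have hP : ∀ i j, P i j = if i = j then P 0 0 else 0 := fun i j =>
    (le_or_gt i j).elim (up i j) fun h => by rw [lo i j h, if_neg h.ne']
  refine ⟨P 0 0, ?_⟩
  generalize P 0 0 = c at hP
  ext (i | i) (j | j) <;> simp [diagonal, ← a1, hP]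

theorem blk_inj {m : ℕ} (h2 : (2 : F) ≠ 0) (hm : 2 ≤ m) {x : H F} (h : blk m x = 1) : x = 1 := by
  rw [blk, ← fromBlocks_one, fromBlocks_inj] at h
  obtain ⟨-, h1, -, h3⟩ := h
  refine H.ext (funext fun k => ?_) ((Int.units_eq_one_or x.e).resolve_right fun e => h2 ?_)
  · have := congrFun (congrFun h1 ⟨k, by omega⟩) ⟨0, by omega⟩
    simp [N, Fin.val_inj] at this
    exact this
  · have := congrFun (congrFun h3 ⟨0, by omega⟩) ⟨0, by omega⟩
    simp [e, sg_neg] at this
    linear_combination -this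

theorem main {m : ℕ} (h2 : (2 : F) ≠ 0) (hm : 2 ≤ m) (he : Even m) (h0 : (m : F) = 0) {ι : Type} [Fintype ι]
    [DecidableEq ι] (e : Fin (m + 1) ⊕ Fin m ≃ ι) : ∃ φ : H F →* ProjectiveSpecialLinearGroup ι F,
      Function.Injective φ ∧ Subgroup.centralizer (φ.range : Set (ProjectiveSpecialLinearGroup ι F)) = ⊥ := by
  let ρ := reindexAlgEquiv F F e
  let ψ : H F →* Matrix.SpecialLinearGroup ι F := MonoidHom.mk' (fun x => ⟨ρ (blk m x), by simp [ρ, det_blk he]⟩)
    fun x y => Subtype.ext (by simp only [blk_mul, map_mul]; rfl)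
  have tr : ∀ x, (ψ x).1.trace = 1 := fun x =>
    (Equiv.sum_comp e.symm fun i => blk m x i i).trans (trace_blk h0 x)
  have key : ∀ x (y z : Matrix.SpecialLinearGroup ι F), z ∈ Subgroup.center _ → y = ψ x * z → y.1.trace = 1 → z = 1 := by
    rintro x _ z hz rfl h
    obtain ⟨r, -, hr⟩ := Matrix.SpecialLinearGroup.mem_center_iff.1 hz
    change ((ψ x).1 * z.1).trace = 1 at h
    rw [← hr, scalar_apply, ← smul_eq_mul_diagonal, trace_smul, tr] at h
    exact Subtype.ext (by rw [← hr, show r = 1 by simpa using h]; simp)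
  refine ⟨(QuotientGroup.mk' _).comp ψ, (injective_iff_map_eq_one _).2 fun x hx => ?_,
    eq_bot_iff.2 fun g hg => ?_⟩
  · have hz : ψ x ∈ Subgroup.center _ := (QuotientGroup.eq_one_iff _).1 hx
    have := key 1 _ _ hz (by simp) (tr x)
    exact blk_inj h2 hm (ρ.injective ((congrArg Subtype.val this).trans (map_one ρ).symm))
  · obtain ⟨g, rfl⟩ := QuotientGroup.mk_surjective g
    have k : ∀ x, g * ψ x = ψ x * g := fun x => by
      have h1 : ((ψ x * g : Matrix.SpecialLinearGroup ι F) : ProjectiveSpecialLinearGroup ι F) = (g * ψ x : _) :=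
        hg _ ⟨x, rfl⟩
      have h2 := QuotientGroup.eq.1 h1
      have h3 := (Subgroup.mem_center_iff.1 h2 g)
      have := key x (g * ψ x * g⁻¹) _ h2 (by rw [mul_inv_eq_iff_eq_mul, mul_assoc, ← h3]; group) (by
        change (g.1 * (ψ x).1 * (g⁻¹).1).trace = 1
        rw [trace_mul_cycle, show (g⁻¹).1 * g.1 = 1 from congrArg Subtype.val (inv_mul_cancel g), one_mul, tr])
      exact (inv_mul_eq_one.1 this).symm
    obtain ⟨r, hr⟩ := scalar_of (g := ρ.symm g.1) h2 fun x => ρ.injective (by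
      rw [map_mul, map_mul, ρ.apply_symm_apply]; exact congrArg Subtype.val (k x))
    refine (QuotientGroup.eq_one_iff _).2 (Subgroup.mem_center_iff.2 fun y => Subtype.ext ?_)
    have : g.1 = algebraMap F _ r := by rw [← ρ.commutes]; exact ρ.symm_apply_eq.1 hr
    change y.1 * g.1 = g.1 * y.1
    rw [this, Algebra.commutes]

end Lead.Kr
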