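import Mathlib
/-! Short vectors modulo 2 in an even lattice without roots. -/
set_option autoImplicit false
namespace Lead.Lat
open Matrix Finset
variable {B : Matrix (Fin 24) (Fin 24) ℤ}

theorem symm (hsymm : B.IsSymm) (x y : Fin 24 → ℤ) : y ⬝ᵥ (B *ᵥ x) = x ⬝ᵥ (B *ᵥ y) := by
  rw [dotProduct_mulVec, ← mulVec_transpose, hsymm.eq, dotProduct_comm]

theorem key (hsymm : B.IsSymm) (hpos : ∀ x : Fin 24 → ℤ, x ≠ 0 → 0 < x ⬝ᵥ (B *ᵥ x))
    (heven : ∀ x : Fin 24 → ℤ, (2 : ℤ) ∣ x ⬝ᵥ (B *ᵥ x)) (h2 : ∀ x : Fin 24 → ℤ, x ⬝ᵥ (B *ᵥ x) ≠ 2)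
    {x y : Fin 24 → ℤ} (hx : x ⬝ᵥ (B *ᵥ x) ≤ 8) (hy : y ⬝ᵥ (B *ᵥ y) ≤ 8) (hc : ∀ i, (2 : ℤ) ∣ (x - y) i) :
    y = x ∨ y = -x ∨ (x ⬝ᵥ (B *ᵥ y) = 0 ∧ x ⬝ᵥ (B *ᵥ x) = 8 ∧ y ⬝ᵥ (B *ᵥ y) = 8) := by
  choose u hu using hc
  have e1 : x = y + (2 : ℤ) • u := by funext i; have := hu i; simp at this ⊢; omega
  have h4 : ∀ v : Fin 24 → ℤ, v ≠ 0 → 4 ≤ v ⬝ᵥ (B *ᵥ v) := fun v hv => by
    have := hpos v hv; have := heven v; have := h2 v; omega
  by_cases a : u = 0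
  · left; rw [e1, a]; simp
  by_cases b : y + u = 0
  · right; left; rw [e1, two_smul, ← add_assoc, b, zero_add, eq_neg_iff_add_eq_zero, b]
  have a' := h4 u a
  have b' := h4 _ b
  have s := symm hsymm y u
  subst e1
  simp only [mulVec_add, mulVec_smul, add_dotProduct, dotProduct_add, smul_dotProduct, dotProduct_smul,
    smul_eq_mul] at *
  omega

theorem card_le (T : Finset (Fin 24 → ℤ)) (h8 : ∀ x ∈ T, x ⬝ᵥ (B *ᵥ x) = 8)
    (h : ∀ x ∈ T, ∀ y ∈ T, y = x ∨ y = -x ∨ x ⬝ᵥ (B *ᵥ y) = 0) : T.card ≤ 48 := by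
  have h1 : T.card ≤ 2 * (T.image fun x => ({x, -x} : Finset (Fin 24 → ℤ))).card := by
    refine card_le_mul_card_image _ _ fun s hs => ?_
    obtain ⟨x, -, rfl⟩ := mem_image.1 hs
    refine (card_le_card fun y hy => ?_).trans (card_le_two (a := x) (b := -x))
    rw [← (mem_filter.1 hy).2]; simp
  have h2 : ∀ s : (T.image fun x => ({x, -x} : Finset (Fin 24 → ℤ))), ∃ x ∈ T, ({x, -x} : Finset _) = s :=
    fun s => mem_image.1 s.2
  choose r hr1 hr2 using h2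
  have h3 : LinearIndependent ℤ r := by
    rw [Fintype.linearIndependent_iff]
    intro g hg j
    have := congrArg (fun v => r j ⬝ᵥ (B *ᵥ v)) hg
    simp only [mulVec_sum, dotProduct_sum, mulVec_smul, dotProduct_smul, mulVec_zero, dotProduct_zero,
      smul_eq_mul] at this
    rw [sum_eq_single j (fun i _ hij => ?_) (by simp), h8 _ (hr1 j)] at this
    · omega
    · rcases h _ (hr1 j) _ (hr1 i) with e | e | e
      · exact absurd (Subtype.ext (by rw [← hr2, ← hr2, e])) hij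
      · exact absurd (Subtype.ext (by rw [← hr2, ← hr2, e, neg_neg, pair_comm])) hij
      · rw [e, mul_zero]
  have h4 := h3.fintype_card_le_finrank
  simp only [Fintype.card_coe, Module.finrank_fintype_fun_eq_card, Fintype.card_fin] at h4
  omega

def red (x : Fin 24 → ℤ) : Fin 24 → ZMod 2 := fun i => x i

theorem red_eq {x y : Fin 24 → ℤ} : red x = red y ↔ ∀ i, (2 : ℤ) ∣ (x - y) i := by
  rw [funext_iff]
  exact forall_congr' fun i => by
    rw [red, red, eq_comm, ZMod.intCast_eq_intCast_iff_dvd_sub]; rfl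

end Lead.Lat
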