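import Cfsg.Agent.Lead.St8
/-! Uniqueness of the strongly regular graph with parameters (100, 22, 0, 6). -/
set_option autoImplicit false
namespace Lead.St
open Finset Cfsg H27 MulAction Equiv SimpleGraph
variable {V : Type*} [Fintype V] [DecidableEq V] {G : SimpleGraph V} [DecidableRel G.Adj]

theorem card_cn (x y : V) : (G.neighborFinset x ∩ G.neighborFinset y).card = Fintype.card (G.commonNeighbors x y) := by
  rw [← Set.toFinset_card]; congr 1; ext z; simp [mem_commonNeighbors]

section
variable (hG : G.IsSRGWith 100 22 0 6)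
include hG

theorem srg_tri {x y z : V} (a : G.Adj x y) (b : G.Adj x z) (c : G.Adj y z) : False := by
  have := hG.of_adj x y a
  rw [Fintype.card_eq_zero_iff] at this
  exact this.false ⟨z, b, c⟩

theorem srg_six {x y : V} (a : x ≠ y) (b : ¬G.Adj x y) : (G.neighborFinset x ∩ G.neighborFinset y).card = 6 :=
  (card_cn x y).trans (hG.of_not_adj a b)

theorem srg_deg (x : V) : (G.neighborFinset x).card = 22 := hG.regular x

theorem srg_two {v w u : V} (h1 : v ≠ w) (h2 : ¬G.Adj v w) (h3 : u ≠ v) (h4 : ¬G.Adj v u) (h5 : u ≠ w)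
    (h6 : ¬G.Adj w u) : (G.neighborFinset v ∩ G.neighborFinset w ∩ G.neighborFinset u).card = 2 := by
  set D := G.neighborFinset v ∩ G.neighborFinset w with hD
  have cD : D.card = 6 := srg_six hG h1 h2
  set R := univ.filter fun u => u ≠ v ∧ ¬G.Adj v u ∧ u ≠ w ∧ ¬G.Adj w u with hR
  have cR : R.card = 60 := by
    have e : R = (insert v (insert w (G.neighborFinset v ∪ G.neighborFinset w)))ᶜ := by
      ext z; simp [hR]; tauto
    have c := card_union_add_card_inter (G.neighborFinset v) (G.neighborFinset w)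
    rw [e, card_compl, hG.card, card_insert_of_notMem (by simp [h1, adj_comm, h2]),
      card_insert_of_notMem (by simp [h2])]
    rw [srg_deg hG, srg_deg hG, ← hD, cD] at c
    omega
  have key : ∀ p ∈ D, ∀ q ∈ D, (R.filter fun z => G.Adj p z ∧ G.Adj q z).card + 2 =
      (G.neighborFinset p ∩ G.neighborFinset q).card := by
    intro p hp q hq
    simp only [hD, mem_inter, mem_neighborFinset] at hp hq
    have e : G.neighborFinset p ∩ G.neighborFinset q = insert v (insert w (R.filter fun z => G.Adj p z ∧ G.Adj q z)) := by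
      ext z
      simp only [hR, mem_inter, mem_neighborFinset, mem_insert, mem_filter, mem_univ, true_and]
      constructor
      · intro h
        by_cases a : z = v
        · exact Or.inl a
        by_cases b : z = w
        · exact Or.inr (Or.inl b)
        exact Or.inr (Or.inr ⟨⟨a, fun c => srg_tri hG hp.1 c h.1, b, fun c => srg_tri hG hp.2 c h.1⟩, h⟩)
      · rintro (rfl | rfl | h)
        exacts [⟨hp.1.symm, hq.1.symm⟩, ⟨hp.2.symm, hq.2.symm⟩, h.2]
    rw [e, card_insert_of_notMem (by simp [h1, hR]), card_insert_of_notMem (by simp [hR])]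
  let m : V → ℤ := fun z => ∑ p ∈ D, if G.Adj p z then 1 else 0
  have s1 : ∑ z ∈ R, m z = 120 := by
    rw [sum_comm, sum_congr rfl (g := fun _ => (20 : ℤ)) fun p hp => ?_, sum_const, cD]; · rfl
    have := key p hp p hp
    rw [inter_self, srg_deg hG] at this
    simp only [and_self] at this
    rw [sum_boole]; omega
  have s2 : ∑ z ∈ R, m z ^ 2 = 240 := by
    have e : ∀ z, m z ^ 2 = ∑ p ∈ D, ∑ q ∈ D, if G.Adj p z ∧ G.Adj q z then (1 : ℤ) else 0 := fun z => by
      rw [sq, sum_mul_sum]
      refine sum_congr rfl fun p _ => sum_congr rfl fun q _ => ?_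
      by_cases a : G.Adj p z <;> by_cases b : G.Adj q z <;> simp [a, b]
    rw [sum_congr rfl fun z _ => e z, sum_comm, sum_congr rfl (g := fun _ => (40 : ℤ)) fun p hp => ?_, sum_const, cD]; · rfl
    rw [sum_comm, sum_congr rfl (g := fun q => (if q = p then 16 else 0) + (4 : ℤ)) fun q hq => ?_, sum_add_distrib,
      sum_ite_eq', if_pos hp, sum_const, cD]; · rfl
    have := key p hp q hq
    rw [sum_boole]
    split_ifs with a
    · subst a
      rw [inter_self, srg_deg hG] at this; omega
    · simp only [hD, mem_inter, mem_neighborFinset] at hp hq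
      rw [srg_six hG (Ne.symm a) fun c => srg_tri hG hp.1 hq.1 c] at this; omega
  have s3 : ∑ z ∈ R, (m z - 2) ^ 2 = 0 := by
    rw [sum_congr rfl (g := fun z => m z ^ 2 - 4 * m z + 4) fun z _ => by ring, sum_add_distrib, sum_sub_distrib,
      ← mul_sum, s1, s2, sum_const, cR]
    rfl
  have := (sum_eq_zero_iff_of_nonneg fun z _ => sq_nonneg _).1 s3 u (by simp [hR, *])
  rw [sq_eq_zero_iff, sub_eq_zero] at this
  simp only [m, sum_boole] at this
  have e : D ∩ G.neighborFinset u = D.filter fun p => G.Adj p u := by ext z; simp [adj_comm]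
  rw [e]; omega

omit [DecidableEq V] in
theorem srg_iso_HG (v : V) : ∃ e : G ≃g HG, e v = 99 := by
  classical
  let α := G.neighborSet v
  have hα : Fintype.card α = 22 := (card_neighborSet_eq_degree G v).trans (hG.regular v)
  let blk : V → Finset α := fun w => univ.filter fun p => G.Adj w p
  have cb : ∀ s : Finset α, ∀ t : Finset V, (∀ x, x ∈ t ↔ ∃ h : x ∈ G.neighborSet v, ⟨x, h⟩ ∈ s) → s.card = t.card := by
    intro s t h
    rw [← card_map (Function.Embedding.subtype _)]
    congr 1; ext x; simp [h]; rfl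
  let Q : Finset V := univ.filter fun w => w ≠ v ∧ ¬G.Adj v w
  have hQ : ∀ w, w ∈ Q ↔ w ≠ v ∧ ¬G.Adj v w := by simp [Q]
  have cQ : Q.card = 77 := by
    have e : Q = (insert v (G.neighborFinset v))ᶜ := by ext z; simp [hQ]
    rw [e, card_compl, hG.card, card_insert_of_notMem (by simp), srg_deg hG]
  have c6 : ∀ w ∈ Q, (blk w).card = 6 := fun w hw => by
    rw [hQ] at hw
    rw [← srg_six hG hw.1.symm hw.2]
    exact cb _ _ fun x => by simp [blk]
  have c0 : ∀ w u, G.Adj w u → Disjoint (blk w) (blk u) := fun w u a => by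
    rw [Finset.disjoint_left]; intro p h1 h2
    simp only [blk, mem_filter, mem_univ, true_and] at h1 h2
    exact srg_tri hG a h1 h2
  have c2 : ∀ w ∈ Q, ∀ u ∈ Q, u ≠ w → ¬G.Adj w u → (blk w ∩ blk u).card = 2 := fun w hw u hu a b => by
    rw [hQ] at hw hu
    rw [← srg_two hG hw.1.symm hw.2 hu.1 hu.2 a b]
    exact cb _ _ fun x => by simp [blk]; tauto
  have c3 : ∀ w ∈ Q, ∀ u ∈ Q, ∀ s : Finset α, s.card = 3 → s ⊆ blk w → s ⊆ blk u → u = w := fun w hw u hu s hs a b => by
    by_contra hne
    have := card_le_card (subset_inter a b)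
    by_cases c : G.Adj w u
    · rw [disjoint_iff_inter_eq_empty.1 (c0 w u c), card_empty] at this; omega
    · rw [c2 w hw u hu hne c] at this; omega
  let B : Set (Finset α) := blk '' Q
  have hB : IsSteinerSystem 3 6 B := by
    refine ⟨by rintro _ ⟨w, hw, rfl⟩; exact c6 w hw, fun s hs => ?_⟩
    have e : Q.biUnion (fun w => powersetCard 3 (blk w)) = powersetCard 3 univ := by
      refine eq_of_subset_of_card_le (fun s hs => ?_) ?_
      · simp only [mem_biUnion, mem_powersetCard] at hs ⊢
        obtain ⟨w, -, -, h⟩ := hs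
        exact ⟨subset_univ _, h⟩
      · rw [card_biUnion, sum_congr rfl (g := fun _ => 20) fun w hw => by rw [card_powersetCard, c6 w hw]; rfl,
          card_powersetCard, card_univ, hα, sum_const, cQ]
        · decide
        · intro w hw u hu hne
          rw [Function.onFun, Finset.disjoint_left]
          intro s h1 h2
          rw [mem_powersetCard] at h1 h2
          exact hne (c3 _ hu _ hw s h1.2 h2.1 h1.1)
    have : s ∈ Q.biUnion (fun w => powersetCard 3 (blk w)) := by rw [e, mem_powersetCard]; exact ⟨subset_univ _, hs⟩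
    simp only [mem_biUnion, mem_powersetCard] at this
    obtain ⟨w, hw, h, -⟩ := this
    refine ⟨blk w, ⟨⟨w, hw, rfl⟩, h⟩, ?_⟩
    rintro _ ⟨⟨u, hu, rfl⟩, h'⟩
    rw [c3 w hw u hu s hs h h']
  have hb : ∀ b : B, ∃ w ∈ Q, blk w = b := fun b => b.2
  choose g g1 g2 using hb
  have g3 : ∀ w (hw : w ∈ Q), g ⟨blk w, w, hw, rfl⟩ = w := fun w hw => by
    obtain ⟨s, hs, hs3⟩ := exists_subset_card_eq (show 3 ≤ (blk w).card by rw [c6 w hw]; norm_num)
    exact c3 w hw _ (g1 _) s hs3 hs (by rw [g2]; exact hs)
  have g4 : ∀ b c, g b = g c → b = c := fun b c e => Subtype.ext (by rw [← g2, ← g2, e])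
  let f : Option (α ⊕ B) → V := fun x => match x with
    | none => v
    | some (.inl p) => p
    | some (.inr b) => g b
  have hf : Function.Bijective f := by
    constructor
    · rintro (_ | p | b) (_ | q | c) e <;> simp only [f] at e
      · rfl
      · exact absurd e q.2.ne
      · exact absurd e.symm ((hQ _).1 (g1 c)).1
      · exact absurd e.symm p.2.ne
      · rw [Subtype.ext e]
      · exact absurd (e ▸ p.2) ((hQ _).1 (g1 c)).2
      · exact absurd e ((hQ _).1 (g1 b)).1
      · exact absurd (e ▸ q.2) ((hQ _).1 (g1 b)).2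
      · rw [g4 b c e]
    · intro x
      by_cases a : x = v
      · exact ⟨none, a.symm⟩
      by_cases b : G.Adj v x
      · exact ⟨some (.inl ⟨x, b⟩), rfl⟩
      · exact ⟨some (.inr ⟨blk x, x, (hQ x).2 ⟨a, b⟩, rfl⟩), g3 x ((hQ x).2 ⟨a, b⟩)⟩
  have mb : ∀ (b : B) (p : α), p ∈ (b : Finset α) ↔ G.Adj (g b) p := fun b p => by rw [← g2]; simp [blk]
  let e1 : pointBlockGraph B ≃g G := ⟨Equiv.ofBijective f hf, fun {x y} => by
    change G.Adj (f x) (f y) ↔ _
    rcases x with _ | p | b <;> rcases y with _ | q | c <;>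
      simp only [f, pointBlockGraph, SimpleGraph.fromRel_adj, pointBlockRel]
    · simp
    · simpa using (show G.Adj v q from q.2)
    · simpa using ((hQ _).1 (g1 c)).2
    · simpa using (show G.Adj v p from p.2).symm
    · simpa using fun a => srg_tri hG p.2 q.2 a
    · simp [mb, adj_comm]
    · simpa [adj_comm] using ((hQ _).1 (g1 b)).2
    · simp [mb]
    · rw [disjoint_comm (a := (c : Finset α)), or_self]
      constructor
      · intro a
        exact ⟨fun e => a.ne (by simp only [Option.some.injEq, Sum.inr.injEq] at e; rw [e]), by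
          rw [← g2, ← g2]; exact c0 _ _ a⟩
      · rintro ⟨a, d⟩
        by_contra h
        have := c2 _ (g1 b) _ (g1 c) (fun e => a (by rw [g4 _ _ e])) h
        rw [g2, g2, disjoint_iff_inter_eq_empty.1 d] at this
        cases this⟩
  obtain ⟨e2, h2⟩ := iso_HG hα hB
  exact ⟨e1.symm.trans e2, by
    have : e1.symm v = none := e1.symm_apply_eq.2 rfl
    simp [this, h2]⟩

omit [DecidableEq V] in
theorem srg_trans (x y : V) : ∃ e : G ≃g G, e x = y := by
  obtain ⟨a, ha⟩ := srg_iso_HG hG x
  obtain ⟨b, hb⟩ := srg_iso_HG hG y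
  exact ⟨a.trans b.symm, by simp [ha, ← hb]⟩
end

end Lead.St
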