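import Cfsg.Agent.H29.U1
import Cfsg.Agent.Lead.Hom4

set_option autoImplicit false
set_option maxRecDepth 100000
set_option linter.style.longLine false
open Cfsg Cfsg.Spor H7.J4 H29 H29.J4m H29.U Subgroup

namespace LeadTw

def dM : List (List ℕ) := [[3, 4, 5, 7, 8], [0, 3], [1, 4], [0, 2, 3, 4], [2, 5], [0, 1, 2, 3, 5], [0, 1, 2, 4, 5], [1, 3, 4, 5], [0, 2, 3, 4, 5], [3, 6], [0, 3, 6], [0, 3, 4, 6], [0, 1, 3, 4, 6], [1, 2, 3, 4, 6], [1, 2, 3, 5, 6], [2, 4, 5, 6], [1, 3, 4, 5, 6], [0, 2, 7], [4, 7], [1, 4, 7], [1, 4, 5, 7], [0, 2, 4, 5, 7], [1, 2, 4, 5, 7], [0, 1, 2, 4, 5, 7], [2, 3, 4, 5, 7], [2, 3, 4, 6, 7], [3, 5, 6, 7], [2, 4, 5, 6, 7], [0, 2, 3, 4, 5, 6, 7], [1, 3, 8], [0, 4, 8], [0, 1, 2, 4, 8], [5, 8], [0, 1, 5, 8], [2, 5, 8], [0, 1, 3, 5, 8], [0, 2, 3, 4, 5, 8], [0, 1, 2, 4, 6, 8], [2, 5, 6, 8], [0, 1, 2, 5, 6, 8], [1,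 3, 5, 6, 8], [2, 3, 5, 6, 8], [1, 2, 3, 5, 6, 8], [3, 4, 5, 6, 8], [0, 3, 4, 5, 6, 8], [0, 1, 7, 8], [0, 1, 4, 7, 8], [0, 2, 3, 4, 7, 8], [0, 2, 5, 7, 8], [0, 1, 2, 5, 7, 8], [0, 1, 4, 5, 7, 8], [0, 3, 4, 5, 7, 8], [0, 1, 6, 7, 8], [0, 1, 2, 6, 7, 8], [4, 6, 7, 8], [0, 3, 4, 6, 7, 8], [0, 1, 3, 4, 6, 7, 8], [3, 5, 6, 7, 8], [0, 3, 4, 5, 6, 7, 8], [1, 3, 4, 5, 6, 7, 8], [2, 4, 9], [1, 5, 9], [0, 2, 5, 9], [1, 2, 3, 5, 9], [6, 9], [0, 6, 9], [1, 2, 6, 9], [3, 6, 9], [0, 2, 3, 6, 9], [1, 2, 4, 6, 9], [0, 1, 3, 4, 6, 9], [0, 1, 3, 5, 6, 9], [0, 2, 3, 5, 6, 9], [0, 1, 2, 4, 5, 6, 9], [0, 3, 4, 5, 6, 9], [1, 3, 4, 5, 6, 9], [0, 2, 4, 7, 9], [1, 2, 3, 5, 7, 9], [0, 1, 4, 5, 7, 9], [0, 2, 4, 5, 7, 9], [3, 6, 7, 9], [0, 3, 6, 7, 9], [1, 2, 3, 6, 7, 9], [0, 4, 6, 7, 9], [2, 4, 6, 7, 9], [3, 4, 6, 7, 9], [2, 3, 4, 6, 7, 9], [0, 5, 6, 7,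 9], [0, 2, 3, 5, 6, 7, 9], [4, 5, 6, 7, 9], [1, 4, 5, 6, 7, 9], [0, 2, 3, 4, 5, 6, 7, 9], [0, 8, 9], [1, 2, 8, 9], [0, 1, 2, 8, 9], [0, 1, 3, 8, 9], [0, 2, 4, 8, 9], [1, 2, 5, 8, 9], [1, 3, 4, 5, 8, 9], [0, 1, 2, 3, 4, 5, 8, 9], [1, 3, 6, 8, 9], [1, 2, 3, 6, 8, 9], [0, 1, 2, 3, 6, 8, 9], [0, 4, 6, 8, 9], [0, 2, 4, 6, 8, 9], [0, 1, 2, 4, 6, 8, 9], [0, 2, 3, 4, 6, 8, 9], [1, 2, 5, 6, 8, 9], [0, 2, 3, 5, 6, 8, 9], [4, 5, 6, 8, 9], [0, 4, 5, 6, 8, 9], [1, 4, 5, 6, 8, 9], [1, 2, 7, 8, 9], [0, 3, 7, 8, 9], [1, 2, 3, 7, 8, 9], [0, 1, 2, 3, 7, 8, 9], [0, 4, 7, 8, 9], [5, 7, 8, 9], [0, 3, 5, 7, 8, 9], [0, 2, 3, 5, 7, 8, 9], [1, 4, 5, 7, 8, 9], [1, 2, 4, 5, 7, 8, 9], [0, 3, 4, 5, 7, 8, 9], [0, 1, 3, 4, 5, 7, 8, 9], [0, 1, 6, 7, 8, 9], [4, 6, 7, 8, 9], [0, 1, 2, 4, 6, 7, 8, 9], [0, 1, 5, 6, 7, 8, 9], [0, 1, 2, 5, 6, 7, 8, 9], [1, 4, 5,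 6, 7, 8, 9], [2, 4, 5, 6, 7, 8, 9], [0, 1, 3, 4, 5, 6, 7, 8, 9], [0, 10], [0, 1, 2, 10], [0, 1, 2, 3, 10], [0, 2, 4, 10], [0, 3, 4, 10], [3, 5, 10], [0, 1, 3, 5, 10], [0, 1, 3, 4, 5, 10], [2, 6, 10], [0, 1, 2, 6, 10], [1, 3, 6, 10], [0, 2, 3, 6, 10], [0, 4, 6, 10], [0, 1, 2, 4, 6, 10], [2, 3, 4, 6, 10], [0, 1, 5, 6, 10], [7, 10], [1, 7, 10], [2, 3, 7, 10], [4, 7, 10], [1, 3, 4, 7, 10], [0, 2, 5, 7, 10], [0, 1, 2, 5, 7, 10], [2, 3, 5, 7, 10], [0, 2, 3, 5, 7, 10], [0, 2, 4, 5, 7, 10], [1, 2, 4, 5, 7, 10], [0, 3, 4, 5, 7, 10], [0, 1, 2, 6, 7, 10], [0, 3, 6, 7, 10], [1, 2, 4, 6, 7, 10], [0, 3, 4, 6, 7, 10], [1, 3, 4, 6, 7, 10], [0, 1, 3, 4, 6, 7, 10], [0, 1, 2, 3, 4, 6, 7, 10], [1, 2, 3, 5, 6, 7, 10], [0, 4, 5, 6, 7, 10], [1, 4, 5, 6, 7, 10], [2, 4, 5, 6, 7, 10], [0, 1, 3, 4, 5, 6, 7, 10], [0, 1, 2, 3, 8, 10], [1, 3, 5, 8, 10], [0,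 1, 3, 5, 8, 10], [0, 1, 4, 5, 8, 10], [0, 2, 4, 6, 8, 10], [2, 3, 4, 6, 8, 10], [0, 2, 3, 4, 6, 8, 10], [1, 2, 5, 6, 8, 10], [1, 3, 5, 6, 8, 10], [0, 1, 2, 3, 5, 6, 8, 10], [0, 2, 4, 5, 6, 8, 10], [0, 1, 2, 3, 4, 5, 6, 8, 10], [0, 2, 3, 7, 8, 10], [4, 7, 8, 10], [1, 4, 7, 8, 10], [2, 3, 4, 7, 8, 10], [0, 2, 3, 4, 7, 8, 10], [1, 5, 7, 8, 10], [0, 1, 5, 7, 8, 10], [3, 5, 7, 8, 10], [0, 2, 3, 5, 7, 8, 10], [4, 5, 7, 8, 10], [3, 4, 5, 7, 8, 10], [0, 1, 2, 3, 4, 5, 7, 8, 10], [1, 6, 7, 8, 10], [0, 2, 3, 6, 7, 8, 10], [1, 3, 4, 6, 7, 8, 10], [5, 6, 7, 8, 10], [2, 5, 6, 7, 8, 10], [0, 1, 2, 3, 5, 6, 7, 8, 10], [0, 3, 4, 5, 6, 7, 8, 10], [1, 3, 4, 5, 6, 7, 8, 10], [1, 9, 10], [0, 1, 3, 9, 10], [2, 3, 9, 10], [1, 2, 3, 9, 10], [0, 2, 4, 9, 10], [1, 2, 4, 9, 10], [0, 1, 2, 3, 4, 9, 10], [1, 3, 5, 9, 10], [2, 3, 6, 9, 10], [2, 4, 5, 6,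 9, 10], [0, 1, 3, 4, 5, 6, 9, 10], [1, 2, 3, 4, 5, 6, 9, 10], [2, 4, 7, 9, 10], [2, 3, 4, 7, 9, 10], [1, 2, 3, 4, 7, 9, 10], [1, 5, 7, 9, 10], [1, 3, 5, 7, 9, 10], [1, 2, 3, 5, 7, 9, 10], [0, 1, 2, 4, 5, 7, 9, 10], [1, 3, 4, 5, 7, 9, 10], [0, 3, 6, 7, 9, 10], [2, 3, 6, 7, 9, 10], [0, 1, 2, 3, 6, 7, 9, 10], [1, 3, 4, 6, 7, 9, 10], [0, 2, 3, 4, 6, 7, 9, 10], [5, 6, 7, 9, 10], [1, 5, 6, 7, 9, 10], [2, 5, 6, 7, 9, 10], [0, 1, 2, 5, 6, 7, 9, 10], [0, 2, 4, 5, 6, 7, 9, 10], [0, 1, 3, 4, 5, 6, 7, 9, 10], [0, 1, 2, 3, 4, 5, 6, 7, 9, 10], [0, 3, 8, 9, 10], [2, 3, 8, 9, 10], [1, 4, 8, 9, 10], [0, 2, 4, 8, 9, 10], [2, 3, 4, 8, 9, 10], [0, 2, 3, 4, 8, 9, 10], [1, 2, 3, 4, 8, 9, 10], [1, 5, 8, 9, 10], [0, 1, 5, 8, 9, 10], [0, 1, 2, 5, 8, 9, 10], [0, 1, 3, 5, 8, 9, 10], [0, 2, 3, 5, 8, 9, 10], [6, 8, 9, 10], [1, 4, 6, 8, 9, 10], [0, 1, 2,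 4, 6, 8, 9, 10], [0, 3, 4, 6, 8, 9, 10], [1, 3, 4, 6, 8, 9, 10], [2, 5, 6, 8, 9, 10], [2, 3, 5, 6, 8, 9, 10], [0, 4, 5, 6, 8, 9, 10], [1, 4, 5, 6, 8, 9, 10], [1, 2, 4, 5, 6, 8, 9, 10], [0, 1, 3, 4, 5, 6, 8, 9, 10], [0, 2, 3, 4, 5, 6, 8, 9, 10], [1, 2, 7, 8, 9, 10], [0, 2, 3, 7, 8, 9, 10], [0, 1, 2, 4, 7, 8, 9, 10], [5, 7, 8, 9, 10], [0, 1, 2, 5, 7, 8, 9, 10], [1, 2, 3, 5, 7, 8, 9, 10], [0, 1, 2, 4, 5, 7, 8, 9, 10], [0, 1, 2, 3, 4, 5, 7, 8, 9, 10], [1, 2, 6, 7, 8, 9, 10], [0, 1, 3, 6, 7, 8, 9, 10], [1, 2, 3, 6, 7, 8, 9, 10], [0, 1, 3, 4, 6, 7, 8, 9, 10], [0, 1, 2, 3, 4, 6, 7, 8, 9, 10], [2, 5, 6, 7, 8, 9, 10], [3, 5, 6, 7, 8, 9, 10], [1, 2, 4, 5, 6, 7, 8, 9, 10]]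
theorem dE : dL = dM.map em := by decide +kernel

noncomputable def LL : List ℕ := [kmul (em mx) cx, kmul (em my) cy, kmul cY (em my), ce]

section
variable {G : Type*} [Group G] {M M' : Model G} {x y e : G}

theorem fE (s : Std M) {L : List ℕ} {l : List G} (h : List.Forall₂ M.R L l)
    (k : eK.map (Ex.c kmul kone L) = eL) : List.Forall₂ M.R eL (eK.map (Ex.g l)) := by
  rw [← k, List.forall₂_map_left_iff, List.forall₂_map_right_iff, List.forall₂_same]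
  intro a _
  rw [← s.1, ← s.2.1]; exact a.R h

theorem clE {L : List ℕ} {l : List G} (h : List.Forall₂ M.R L l) : M.cl L = closure {a | a ∈ l} := by
  unfold Model.cl
  congr 1
  ext g
  induction h with
  | nil => simp
  | cons h1 _ ih =>
    simp only [Set.mem_setOf_eq, List.mem_cons, exists_eq_or_imp] at ih ⊢
    rw [ih]
    exact or_congr_left ⟨fun q => M.unique q h1, fun q => q ▸ h1⟩

theorem com (s : Std M) (s' : Std M') {l : List G} (h : List.Forall₂ M.R eL l) (h' : List.Forall₂ M'.R eL l)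
    (m : List ℕ) : ∃ g, M.R (em m) g ∧ M'.R (em m) g := by
  induction m with
  | nil => exact ⟨1, (s.2.1 ▸ M.R_one : M.R kone 1), (s'.2.1 ▸ M'.R_one : M'.R kone 1)⟩
  | cons a m ih =>
    obtain ⟨g, g1, g2⟩ := ih
    have a1 := M.R_mul (R_getD h a) g1
    have a2 := M'.R_mul (R_getD h' a) g2
    rw [s.1, s.2.1] at a1
    rw [s'.1, s'.2.1] at a2
    exact ⟨_, a1, a2⟩

theorem cardH (f : Md M x y e) : Nat.card (closure ({x, y, e} : Set G)) = 2048 * 244823040 := by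
  obtain ⟨J, s, h⟩ := j4_model'
  have cJ : Nat.card (closure ({jx, jy, je} : Set J4)) = 2048 * 244823040 := by
    have := (closure ({jx, jy, je} : Set J4)).card_mul_index
    rw [H7.JD.j_main.1, show Nat.card J4 = 86775571046077562880 from H7.JD.j_main.2.1.2] at this
    exact Nat.eq_of_mul_eq_mul_right (by norm_num : 0 < 173067389) (this.trans (by norm_num))
  let Γ := closure ({(jx, x), (jy, y), (je, e)} : Set (J4 × G))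
  have xx : x⁻¹ = x := inv_eq_of_mul_eq_one_right (f.s.eq f.h (.m (.v 0) (.v 0)) (.v 9) (by decide +kernel))
  have ee : e⁻¹ = e := inv_eq_of_mul_eq_one_right (f.s.eq f.h (.m (.v 3) (.v 3)) (.v 9) (by decide +kernel))
  have jxx : jx⁻¹ = jx := inv_eq_of_mul_eq_one_right (s.eq h (.m (.v 0) (.v 0)) (.v 9) (by decide +kernel))
  have jee : je⁻¹ = je := inv_eq_of_mul_eq_one_right (s.eq h (.m (.v 4) (.v 4)) (.v 9) (by decide +kernel))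
  have cm : ∀ g ∈ Γ, ∃ c, J.R c g.1 ∧ M.R c g.2 := fun g hg => by
    induction hg using closure_induction'' with
    | one => exact ⟨kone, s.2.1 ▸ J.R_one, f.s.2.1 ▸ M.R_one⟩
    | mem g hg =>
      rcases hg with rfl | rfl | rfl
      exacts [⟨cx, R_getD h 0, R_getD f.h 0⟩, ⟨cy, R_getD h 1, R_getD f.h 1⟩, ⟨ce, R_getD h 4, R_getD f.h 3⟩]
    | inv_mem g hg =>
      rcases hg with rfl | rfl | rfl
      · exact ⟨cx, J.R_congr (R_getD h 0) jxx.symm, M.R_congr (R_getD f.h 0) xx.symm⟩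
      · exact ⟨cY, R_getD h 2, R_getD f.h 2⟩
      · exact ⟨ce, J.R_congr (R_getD h 4) jee.symm, M.R_congr (R_getD f.h 3) ee.symm⟩
    | mul a b _ _ ha hb =>
      obtain ⟨c, c1, c2⟩ := ha
      obtain ⟨d, d1, d2⟩ := hb
      have a1 := J.R_mul c1 d1
      have a2 := M.R_mul c2 d2
      rw [s.1] at a1
      rw [f.s.1] at a2
      exact ⟨_, a1, a2⟩
  have iff : ∀ a ∈ Γ, ∀ b ∈ Γ, a.1 = b.1 ↔ a.2 = b.2 := fun a ha b hb => by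
    obtain ⟨c, c1, c2⟩ := cm a ha
    obtain ⟨d, d1, d2⟩ := cm b hb
    rw [← J.eqb_iff c1 d1, ← M.eqb_iff c2 d2, s.2.2, f.s.2.2]
  have e1 : Γ.map (MonoidHom.fst J4 G) = closure {jx, jy, je} := by
    rw [MonoidHom.map_closure]; simp [Set.image_insert_eq]
  have e2 : Γ.map (MonoidHom.snd J4 G) = closure {x, y, e} := by
    rw [MonoidHom.map_closure]; simp [Set.image_insert_eq]
  rw [← cJ, ← e1, ← e2]
  refine (Nat.card_congr (Equiv.ofBijective ((MonoidHom.snd J4 G).subgroupMap Γ) ⟨fun a b q => ?_,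
    MonoidHom.subgroupMap_surjective _ _⟩)).symm.trans (Nat.card_congr (Equiv.ofBijective
      ((MonoidHom.fst J4 G).subgroupMap Γ) ⟨fun a b q => ?_, MonoidHom.subgroupMap_surjective _ _⟩))
  · have q' : a.1.2 = b.1.2 := congrArg Subtype.val q
    exact Subtype.ext (Prod.ext ((iff _ a.2 _ b.2).2 q') q')
  · have q' : a.1.1 = b.1.1 := congrArg Subtype.val q
    exact Subtype.ext (Prod.ext q' ((iff _ a.2 _ b.2).1 q'))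

end

theorem k0 : eK.map (Ex.c kmul kone L4) = eL := by decide +kernel
theorem k0' : eK.map (Ex.c kmul kone LL) = eL := by decide +kernel
theorem k1 : ∀ j < 11, Nat.beq ((Ex.m (.v j) (.v j)).c kmul kone eL) ((Ex.v 20).c kmul kone eL) = true := by
  decide +kernel
theorem k2 : ∀ j < 11, ∀ i < 11, Nat.beq ((Ex.m (.v j) (.v i)).c kmul kone eL)
    ((Ex.m (.v i) (.v j)).c kmul kone eL) = true := by decide +kernel
theorem k3 : ∀ j < 11, Nat.beq (kmul (kmul (kmul (em mx) cx) (lgetD kone eL j)) (kmul (em mx) cx))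
    ((nx.getD j (.v 0)).c kmul kone eL) = true := by decide +kernel
theorem k4 : ∀ j < 11, Nat.beq (kmul (kmul (kmul (em my) cy) (lgetD kone eL j)) (kmul cY (em my)))
    ((ny.getD j (.v 0)).c kmul kone eL) = true := by decide +kernel
theorem k5 : Nat.beq (wr.c kmul kone LL) (wr.c kmul kone L4) = true := by decide +kernel
theorem k6 : cg = em mg := by decide +kernel
theorem k7 : kmul (em mca) (wca.c kmul kone LL) = cB := by decide +kernel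
theorem k8 : kmul (em mca) (wca.c kmul kone L4) = cA := by decide +kernel

universe u
variable {G : Type u} [Group G] [Finite G] {M : Model G} {x y e t : G}

theorem tw (hom : ∀ x y : G, x ^ 2 = 1 → y ^ 3 = 1 → (x * y) ^ 23 = 1 → (x⁻¹ * y⁻¹ * x * y) ^ 12 = 1 → (x⁻¹ * (y * x * y)⁻¹ * x * (y * x * y)) ^ 5 = 1 → (x * y * ((x * y * x * (y⁻¹)) ^ 3)) ^ 4 = 1 → ((x * y * x * y * x * (y⁻¹)) ^ 3) * ((x * y * x * (y⁻¹) * x * (y⁻¹)) ^ 3) = 1 → ∀ eg : List G, eg = eK.map (Ex.g [x, y, y⁻¹, e]) → (∀ a ∈ eg, a * a = 1) → (∀ a ∈ eg, ∀ b ∈ eg, a * b = b * a) → (∀ j < 11, x * eg.getD j 1 * x⁻¹ = (nx.getD j (.v 0)).g eg) → (∀ j < 11, y * eg.getD j 1 * y⁻¹ = (ny.getD j (.v 0)).g eg) → Nat.card (closure ({x, y, e} : Set G)) = 2048 * 244823040 → ∃ M : Model G, Md M x y e) (f : Fr M x y e) (ht : Tt x y e t) (h : Ac M t cg cB) : ∃ (M' : Model G) (x'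 y' : G), Fr M' x' y' e ∧ Tt x' y' e t ∧ Ac M' t cg cA := by
  have s := f.s
  obtain ⟨a, aV, ha⟩ := em_in f.toMd mx
  obtain ⟨b, bV, hb⟩ := em_in f.toMd my
  have bb : b⁻¹ = b := inv_eq_of_mul_eq_one_right
    (s.eq (L := [em my]) (l := [b]) (.cons hb .nil) (.m (.v 0) (.v 0)) (.v 9) (by decide +kernel))
  obtain ⟨X, hX⟩ : ∃ X, X = a * x := ⟨_, rfl⟩
  obtain ⟨Y, hY⟩ : ∃ Y, Y = b * y := ⟨_, rfl⟩
  have r0 : M.R (kmul (em mx) cx) X := by rw [hX, ← s.1]; exact M.R_mul ha (R_getD f.h 0)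
  have r1 : M.R (kmul (em my) cy) Y := by rw [hY, ← s.1]; exact M.R_mul hb (R_getD f.h 1)
  have r2 : M.R (kmul cY (em my)) Y⁻¹ := by
    rw [hY, mul_inv_rev, bb, ← s.1]; exact M.R_mul (R_getD f.h 2) hb
  have h' : List.Forall₂ M.R LL [X, Y, Y⁻¹, e] := .cons r0 (.cons r1 (.cons r2 (.cons (R_getD f.h 3) .nil)))
  have XX : X⁻¹ = X := inv_eq_of_mul_eq_one_right (s.eq h' (.m (.v 0) (.v 0)) (.v 9) (by decide +kernel))
  have hE := fE s f.h k0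
  have hE' := fE s h' k0'
  have V1 : M.cl eL ≤ closure {x, y, e} := by
    rw [clE hE, closure_le]
    intro g hg
    obtain ⟨w, -, rfl⟩ := List.mem_map.1 hg
    refine LeadHom.gmem _ _ ?_ w
    simp only [List.forall_mem_cons]
    exact ⟨subset_closure (by simp), subset_closure (by simp), inv_mem (subset_closure (by simp)),
      subset_closure (by simp), by simp⟩
  have V2 : M.cl eL ≤ closure {X, Y, e} := by
    rw [clE hE', closure_le]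
    intro g hg
    obtain ⟨w, -, rfl⟩ := List.mem_map.1 hg
    refine LeadHom.gmem _ _ ?_ w
    simp only [List.forall_mem_cons]
    exact ⟨subset_closure (by simp), subset_closure (by simp), inv_mem (subset_closure (by simp)),
      subset_closure (by simp), by simp⟩
  have ce' : closure ({X, Y, e} : Set G) = closure {x, y, e} := by
    apply le_antisymm <;> rw [closure_le]
    · rintro _ (rfl | rfl | rfl)
      · rw [hX]; exact mul_mem (V1 aV) (subset_closure (by simp))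
      · rw [hY]; exact mul_mem (V1 bV) (subset_closure (by simp))
      · exact subset_closure (by simp)
    · rintro g (q | q | q)
      · rw [q, show x = a⁻¹ * X by rw [hX]; group]
        exact mul_mem (inv_mem (V2 aV)) (subset_closure (by simp))
      · rw [q, show y = b⁻¹ * Y by rw [hY]; group]
        exact mul_mem (inv_mem (V2 bV)) (subset_closure (by simp))
      · rw [q]; exact subset_closure (by simp)
  have len : (eK.map (Ex.g [X, Y, Y⁻¹, e])).length = 11 := by simp [eK]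
  obtain ⟨M', f'⟩ := hom X Y (s.eq h' (.p (.v 0) 2) (.v 9) (by decide +kernel))
    (s.eq h' (.p (.v 1) 3) (.v 9) (by decide +kernel))
    (s.eq h' (.p (.m (.v 0) (.v 1)) 23) (.v 9) (by decide +kernel))
    (by rw [XX]; exact s.eq h' (.p (.m (.m (.m (.v 0) (.v 2)) (.v 0)) (.v 1)) 12) (.v 9) (by decide +kernel))
    (by
      rw [mul_inv_rev, mul_inv_rev, XX]
      exact s.eq h' (.p (.m (.m (.m (.v 0) (.m (.v 2) (.m (.v 0) (.v 2)))) (.v 0)) (.m (.m (.v 1) (.v 0)) (.v 1))) 5)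
        (.v 9) (by decide +kernel))
    (s.eq h' (.p (.m (.m (.v 0) (.v 1)) (.p (.m (.m (.m (.v 0) (.v 1)) (.v 0)) (.v 2)) 3)) 4) (.v 9)
      (by decide +kernel))
    (s.eq h' (.m (.p (.m (.m (.m (.m (.m (.v 0) (.v 1)) (.v 0)) (.v 1)) (.v 0)) (.v 2)) 3)
      (.p (.m (.m (.m (.m (.m (.v 0) (.v 1)) (.v 0)) (.v 2)) (.v 0)) (.v 2)) 3)) (.v 9) (by decide +kernel))
    _ rfl
    (fun g hg => by
      obtain ⟨j, hj, rfl⟩ := LeadHom.idx hg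
      exact (s.eq hE' _ _ (k1 j (len ▸ hj))).trans (List.getD_eq_default _ _ (by simp [eK])))
    (fun g hg k hk => by
      obtain ⟨j, hj, rfl⟩ := LeadHom.idx hg
      obtain ⟨i, hi, rfl⟩ := LeadHom.idx hk
      exact s.eq hE' _ _ (k2 j (len ▸ hj) i (len ▸ hi)))
    (fun j hj => by
      rw [XX]
      exact M.eq_of (M.R_mul (M.R_mul r0 (R_getD hE' j)) r0) ((nx.getD j (.v 0)).R hE')
        (by rw [s.1, s.2.1, s.2.2]; exact k3 j hj))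
    (fun j hj => M.eq_of (M.R_mul (M.R_mul r1 (R_getD hE' j)) r2) ((ny.getD j (.v 0)).R hE')
        (by rw [s.1, s.2.1, s.2.2]; exact k4 j hj))
    (by rw [ce']; exact cardH f.toMd)
  have s' := f'.s
  have hF := fE s' f'.h k0
  have cl' : M'.cl eL = M.cl eL := by rw [clE hF, clE hE']
  have w : wr.g [X, Y, Y⁻¹, e] = wr.g [x, y, y⁻¹, e] :=
    M.eq_of (wr.R h') (wr.R f.h) (by rw [s.1, s.2.1, s.2.2]; exact k5)
  refine ⟨M', X, Y, ⟨f', by rw [cl', ce']; exact f.nV, by rw [cl']; exact f.cV, fun c hc d hd => ?_,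
    by rw [ce']; exact f.xe, f.tri⟩, by unfold Tt; rw [w]; exact ht, ?_⟩
  · rw [dE] at hc
    obtain ⟨m, hm, rfl⟩ := List.mem_map.1 hc
    obtain ⟨g, g1, g2⟩ := com s s' hE' hF m
    rw [ce', M'.unique hd g2]
    exact f.cD _ (by rw [dE]; exact List.mem_map_of_mem hm) g g1
  · obtain ⟨g, g1, g2⟩ := h
    obtain ⟨u, u1, u2⟩ := com s s' hE' hF mg
    obtain ⟨v, v1, v2⟩ := com s s' hE' hF mca
    rw [← k6] at u1 u2
    have p1 := M.R_mul v1 (wca.R h')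
    have p2 := M'.R_mul v2 (wca.R f'.h)
    rw [s.1, s.2.1, k7] at p1
    rw [s'.1, s'.2.1, k8] at p2
    exact ⟨g, M.unique u1 g1 ▸ u2, M.unique p1 g2 ▸ p2⟩

end LeadTw
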